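/-
Local structure of a special `2`-group `E = [E, β]` ("line") normalised by an element `β` of odd order
("point") in a minimal counterexample to the module theorem for fixed-point-free coprime automorphisms.
-/
import Mathlib
import Cfsg.Agent.SOLV.CoprimeSylow
import Cfsg.Agent.TECH.SylIn
import Cfsg.Agent.S0055

set_option autoImplicit false
set_option linter.unusedSectionVars false

namespace CL.Fpf

open Subgroup CL.MSS
open scoped commutatorElement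

variable {Γ : Type*} [Group Γ]

theorem cm_mul_left (x y t : Γ) : ⁅x * y, t⁆ = x * ⁅y, t⁆ * x⁻¹ * ⁅x, t⁆ := by
  simp only [commutatorElement_def]; group

theorem cm_mul_right (x y t : Γ) : ⁅t, x * y⁆ = ⁅t, x⁆ * (x * ⁅t, y⁆ * x⁻¹) := by
  simp only [commutatorElement_def]; group

theorem cm_inv_left (x t : Γ) : ⁅x⁻¹, t⁆ = x⁻¹ * ⁅x, t⁆⁻¹ * x := by
  simp only [commutatorElement_def]; group

theorem conj_eq_cm_mul (y a : Γ) : y * a * y⁻¹ = ⁅y, a⁆ * a := by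
  simp only [commutatorElement_def]; group

theorem conj_eq_of_commute {x z : Γ} (h : Commute x z) : x * z * x⁻¹ = z := by
  rw [h.eq, mul_inv_cancel_right]

theorem commute_of_conj_eq {x z : Γ} (h : x * z * x⁻¹ = z) : Commute x z :=
  mul_inv_eq_iff_eq_mul.1 h

theorem commute_conj {x z : Γ} (g : Γ) (h : Commute x z) : Commute (g * x * g⁻¹) (g * z * g⁻¹) := by
  simpa using h.map (MulAut.conj g)

theorem commute_conj_iff {x z g : Γ} : Commute (g * x * g⁻¹) (g * z * g⁻¹) ↔ Commute x z :=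
  ⟨fun h => by simpa [mul_assoc] using commute_conj g⁻¹ h, commute_conj g⟩

theorem commute_conj_left {x z g : Γ} : Commute (g * x * g⁻¹) z ↔ Commute x (g⁻¹ * z * g) := by
  rw [← commute_conj_iff (g := g) (x := x)]; simp [mul_assoc]

theorem mem_cent_zpowers {c β : Γ} : c ∈ centralizer (zpowers β : Set Γ) ↔ Commute c β :=
  ⟨fun h => (h β (mem_zpowers β)).symm, fun h _ ⟨n, e⟩ => e ▸ (h.zpow_right n).symm.eq⟩

theorem mem_cent_single {c β : Γ} : c ∈ centralizer ({β} : Set Γ) ↔ Commute c β :=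
  mem_centralizer_singleton_iff

theorem conj_mem_N {Q : Subgroup Γ} {t y : Γ} (ht : t ∈ normalizer (Q : Set Γ)) (hy : y ∈ Q) :
    t * y * t⁻¹ ∈ Q := (mem_normalizer_iff.1 ht y).1 hy

theorem conj_mem_N' {Q : Subgroup Γ} {t y : Γ} (ht : t ∈ normalizer (Q : Set Γ)) (hy : y ∈ Q) :
    t⁻¹ * y * t ∈ Q := by simpa using conj_mem_N (inv_mem ht) hy

theorem cm_mem_left {Q : Subgroup Γ} {t y : Γ} (ht : t ∈ normalizer (Q : Set Γ)) (hy : y ∈ Q) :
    ⁅y, t⁆ ∈ Q := by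
  have := Q.mul_mem hy (conj_mem_N ht (Q.inv_mem hy))
  simpa [commutatorElement_def, mul_assoc] using this

theorem cm_mem_right {Q : Subgroup Γ} {t y : Γ} (ht : t ∈ normalizer (Q : Set Γ)) (hy : y ∈ Q) :
    ⁅t, y⁆ ∈ Q := by
  rw [← commutatorElement_inv]; exact Q.inv_mem (cm_mem_left ht hy)

theorem mem_N_of_forall [Finite Γ] {Q : Subgroup Γ} {t : Γ} (h : ∀ y ∈ Q, t * y * t⁻¹ ∈ Q) :
    t ∈ normalizer (Q : Set Γ) :=
  mem_normalizer_of_cj_le (cj_le_iff_forall.2 h)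

theorem mem_N_inf {A B : Subgroup Γ} {t : Γ} (hA : t ∈ normalizer (A : Set Γ))
    (hB : t ∈ normalizer (B : Set Γ)) : t ∈ normalizer ((A ⊓ B : Subgroup Γ) : Set Γ) := by
  rw [mem_normalizer_iff_cj] at *; rw [cj_inf, hA, hB]

theorem mem_N_sup {A B : Subgroup Γ} {t : Γ} (hA : t ∈ normalizer (A : Set Γ))
    (hB : t ∈ normalizer (B : Set Γ)) : t ∈ normalizer ((A ⊔ B : Subgroup Γ) : Set Γ) := by
  rw [mem_normalizer_iff_cj] at *; rw [cj_sup, hA, hB]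

theorem mem_N_cm {A B : Subgroup Γ} {t : Γ} (hA : t ∈ normalizer (A : Set Γ))
    (hB : t ∈ normalizer (B : Set Γ)) : t ∈ normalizer ((⁅A, B⁆ : Subgroup Γ) : Set Γ) := by
  rw [mem_normalizer_iff_cj] at *; rw [cj_commutator, hA, hB]

theorem mem_N_N {A : Subgroup Γ} {t : Γ} (hA : t ∈ normalizer (A : Set Γ)) :
    t ∈ normalizer ((normalizer (A : Set Γ) : Subgroup Γ) : Set Γ) := le_normalizer hA

theorem mem_N_C {A : Subgroup Γ} {t : Γ} (hA : t ∈ normalizer (A : Set Γ)) :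
    t ∈ normalizer ((centralizer (A : Set Γ) : Subgroup Γ) : Set Γ) :=
  normalizer_le_normalizer_centralizer A hA

theorem mem_N_zpowers {t z : Γ} (h : Commute t z) : t ∈ normalizer ((zpowers z : Subgroup Γ) : Set Γ) :=
  centralizer_le_normalizer _ (mem_cent_zpowers.2 h)

theorem mem_N_C1 {t z : Γ} (h : Commute t z) :
    t ∈ normalizer ((centralizer ({z} : Set Γ) : Subgroup Γ) : Set Γ) :=
  le_normalizer (mem_cent_single.2 h)

theorem mem_N_cmz {A : Subgroup Γ} {β : Γ} (hA : β ∈ normalizer (A : Set Γ)) :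
    β ∈ normalizer ((⁅A, zpowers β⁆ : Subgroup Γ) : Set Γ) :=
  mem_N_cm hA (le_normalizer (mem_zpowers β))

theorem cmz_le {A : Subgroup Γ} {β : Γ} (hA : β ∈ normalizer (A : Set Γ)) : ⁅A, zpowers β⁆ ≤ A :=
  commutator_le_left_of_normalizes (zpowers_le.2 hA)

theorem cmz_le_of {A B : Subgroup Γ} {β : Γ} (hB : β ∈ normalizer (B : Set Γ))
    (h : ∀ y ∈ A, ⁅y, β⁆ ∈ B) : ⁅A, zpowers β⁆ ≤ B := by
  refine commutator_le.2 fun y hy _ ⟨n, e⟩ => e ▸ ?_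
  have key : ∀ n : ℕ, ⁅y, β ^ n⁆ ∈ B := fun n => by
    induction n with
    | zero => simp
    | succ n ih => rw [pow_succ', cm_mul_right]; exact B.mul_mem (h y hy) (conj_mem_N hB ih)
  rcases n with n | n
  · simpa using key n
  · have : ⁅y, β ^ Int.negSucc n⁆ = (β ^ (n + 1))⁻¹ * ⁅y, β ^ (n + 1)⁆⁻¹ * β ^ (n + 1) := by
      simp only [zpow_negSucc, commutatorElement_def]; group
    simp only [this]
    exact conj_mem_N' (pow_mem hB _) (B.inv_mem (key _))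

/-- `X` is normalised by `t` as soon as the commutators with its generators lie in `X`. -/
theorem mem_N_of_cm [Finite Γ] {X : Subgroup Γ} {t : Γ} {s : Set Γ} (hX : X = closure s)
    (h : ∀ y ∈ s, ⁅t, y⁆ ∈ X) : t ∈ normalizer (X : Set Γ) := by
  refine mem_normalizer_of_cj_le ?_
  conv_lhs => rw [hX, cj_closure]
  rw [closure_le]
  rintro _ ⟨y, hy, rfl⟩
  simp only [conj_eq_cm_mul]
  exact X.mul_mem (h y hy) (hX ▸ subset_closure hy)

section ab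

open Classical in
/-- The image of an element of `E` in `E / [E, E]`. -/
noncomputable def ab (E : Subgroup Γ) (y : Γ) : Abelianization E :=
  if h : y ∈ E then Abelianization.of ⟨y, h⟩ else 1

variable {E : Subgroup Γ} {x y t : Γ}

theorem ab_of (hy : y ∈ E) : ab E y = Abelianization.of ⟨y, hy⟩ := dif_pos hy

theorem ab_mul (hx : x ∈ E) (hy : y ∈ E) : ab E (x * y) = ab E x * ab E y := by
  rw [ab_of hx, ab_of hy, ab_of (E.mul_mem hx hy), ← map_mul]; rfl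

theorem ab_inv (hx : x ∈ E) : ab E x⁻¹ = (ab E x)⁻¹ := by
  rw [ab_of hx, ab_of (E.inv_mem hx), ← map_inv]; rfl

theorem ab_eq_one (hx : x ∈ E) : ab E x = 1 ↔ x ∈ ⁅E, E⁆ := by
  rw [ab_of hx, ← MonoidHom.mem_ker, Abelianization.ker_of, ← map_subtype_commutator]
  exact ⟨fun h => ⟨_, h, rfl⟩, fun ⟨z, hz, e⟩ => (Subtype.ext e : z = ⟨x, hx⟩) ▸ hz⟩

theorem ab_eq_iff (hx : x ∈ E) (hy : y ∈ E) : ab E x = ab E y ↔ x⁻¹ * y ∈ ⁅E, E⁆ := by
  rw [← ab_eq_one (E.mul_mem (E.inv_mem hx) hy), ab_mul (E.inv_mem hx) hy, ab_inv hx, inv_mul_eq_one]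

theorem ab_conj (hx : x ∈ E) (hy : y ∈ E) : ab E (x * y * x⁻¹) = ab E y := by
  rw [ab_mul (E.mul_mem hx hy) (E.inv_mem hx), ab_mul hx hy, ab_inv hx, mul_inv_cancel_comm]

theorem mem_N_der (ht : t ∈ normalizer (E : Set Γ)) : t ∈ normalizer ((⁅E, E⁆ : Subgroup Γ) : Set Γ) :=
  mem_N_cm ht ht

theorem der_le : ⁅E, E⁆ ≤ E := commutator_le_left_of_normalizes le_normalizer

theorem ab_conj_congr (ht : t ∈ normalizer (E : Set Γ)) (hx : x ∈ E) (hy : y ∈ E)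
    (h : ab E x = ab E y) : ab E (t * x * t⁻¹) = ab E (t * y * t⁻¹) := by
  rw [ab_eq_iff hx hy] at h
  rw [ab_eq_iff (conj_mem_N ht hx) (conj_mem_N ht hy)]
  simpa [mul_assoc] using conj_mem_N (mem_N_der ht) h

theorem ab_cm_mul (ht : t ∈ normalizer (E : Set Γ)) (hx : x ∈ E) (hy : y ∈ E) :
    ab E ⁅x * y, t⁆ = ab E ⁅x, t⁆ * ab E ⁅y, t⁆ := by
  rw [cm_mul_left, ab_mul (conj_mem_N (le_normalizer hx) (cm_mem_left ht hy)) (cm_mem_left ht hx),
    ab_conj hx (cm_mem_left ht hy), mul_comm]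

theorem ab_cm_inv (ht : t ∈ normalizer (E : Set Γ)) (hx : x ∈ E) : ab E ⁅x⁻¹, t⁆ = (ab E ⁅x, t⁆)⁻¹ := by
  have := ab_cm_mul ht (E.inv_mem hx) hx
  rw [inv_mul_cancel, commutatorElement_one_left, (ab_eq_one E.one_mem).2 (one_mem _)] at this
  exact eq_inv_of_mul_eq_one_left this.symm

theorem ab_cm_right (ht : t ∈ normalizer (E : Set Γ)) (hx : x ∈ E) (hy : y ∈ E) :
    ab E ⁅y, x * t⁆ = ab E ⁅y, t⁆ := by
  rw [cm_mul_right, ab_mul (cm_mem_left (le_normalizer hx) hy) (conj_mem_N (le_normalizer hx)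
    (cm_mem_left ht hy)), ab_conj hx (cm_mem_left ht hy),
    (ab_eq_one (cm_mem_left (le_normalizer hx) hy)).2 (commutator_mem_commutator hy hx), one_mul]

/-- The centraliser of `t` in `E` modulo `[E, E]`. -/
def ct (E : Subgroup Γ) (t : Γ) : Subgroup Γ where
  carrier := {y | y ∈ E ∧ ⁅y, t⁆ ∈ ⁅E, E⁆}
  mul_mem' := fun {x y} hx hy => ⟨E.mul_mem hx.1 hy.1, by
    rw [cm_mul_left]; exact mul_mem (conj_mem_N (mem_N_der (le_normalizer hx.1)) hy.2) hx.2⟩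
  one_mem' := ⟨E.one_mem, by simp⟩
  inv_mem' := fun {x} hx => ⟨E.inv_mem hx.1, by
    rw [cm_inv_left]; exact conj_mem_N' (mem_N_der (le_normalizer hx.1)) (inv_mem hx.2)⟩

theorem mem_ct : y ∈ ct E t ↔ y ∈ E ∧ ⁅y, t⁆ ∈ ⁅E, E⁆ := Iff.rfl

theorem ct_le : ct E t ≤ E := fun _ h => h.1

theorem der_le_ct (ht : t ∈ normalizer (E : Set Γ)) : ⁅E, E⁆ ≤ ct E t :=
  fun _ hz => ⟨der_le hz, cm_mem_left (mem_N_der ht) hz⟩

theorem ct_mul (ht : t ∈ normalizer (E : Set Γ)) (hx : x ∈ E) : ct E (x * t) = ct E t := by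
  ext y
  refine and_congr_right fun hy => ?_
  rw [← ab_eq_one (cm_mem_left ht hy), ← ab_eq_one (cm_mem_left (mul_mem (le_normalizer hx) ht) hy),
    ab_cm_right ht hx hy]

/-- The commutators `[y, t]`, `y ∈ P`, modulo `[E, E]`. -/
def wt {E P : Subgroup Γ} {t : Γ} (ht : t ∈ normalizer (E : Set Γ)) (hP : P ≤ E) : Subgroup Γ where
  carrier := {w | w ∈ E ∧ ∃ y ∈ P, ab E w = ab E ⁅y, t⁆}
  mul_mem' := fun {a b} ⟨ha, x, hx, e⟩ ⟨hb, y, hy, e'⟩ => ⟨E.mul_mem ha hb, x * y, P.mul_mem hx hy, by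
    rw [ab_mul ha hb, e, e', ab_cm_mul ht (hP hx) (hP hy)]⟩
  one_mem' := ⟨E.one_mem, 1, P.one_mem, by simp⟩
  inv_mem' := fun {a} ⟨ha, x, hx, e⟩ => ⟨E.inv_mem ha, x⁻¹, P.inv_mem hx, by
    rw [ab_inv ha, e, ab_cm_inv ht (hP hx)]⟩

theorem mem_wt {P : Subgroup Γ} {ht : t ∈ normalizer (E : Set Γ)} {hP : P ≤ E} :
    x ∈ wt ht hP ↔ x ∈ E ∧ ∃ y ∈ P, ab E x = ab E ⁅y, t⁆ := Iff.rfl

theorem cm_mem_wt {P : Subgroup Γ} (ht : t ∈ normalizer (E : Set Γ)) (hP : P ≤ E) (hy : y ∈ P) :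
    ⁅y, t⁆ ∈ wt ht hP := ⟨cm_mem_left ht (hP hy), y, hy, rfl⟩

theorem der_le_wt {P : Subgroup Γ} (ht : t ∈ normalizer (E : Set Γ)) (hP : P ≤ E) : ⁅E, E⁆ ≤ wt ht hP :=
  fun _ hz => ⟨der_le hz, 1, P.one_mem, by
    rw [(ab_eq_one (der_le hz)).2 hz, commutatorElement_one_left, (ab_eq_one E.one_mem).2 (one_mem _)]⟩

theorem mem_ct_congr (ht : t ∈ normalizer (E : Set Γ)) (hx : x ∈ ct E t) (hy : y ∈ E)
    (h : ab E x = ab E y) : y ∈ ct E t := by
  have := (ct E t).mul_mem hx (der_le_ct ht ((ab_eq_iff hx.1 hy).1 h))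
  rwa [mul_inv_cancel_left] at this

end ab

section coprime

variable [Finite Γ] {r : ℕ} {Y : Subgroup Γ} {β : Γ}

theorem cop_z (hβ : β ^ r = 1) (hY : (Nat.card Y).Coprime r) :
    (Nat.card (zpowers β)).Coprime (Nat.card Y) := by
  rw [Nat.card_zpowers]
  exact (hY.coprime_dvd_right (orderOf_dvd_of_pow_eq_one hβ)).symm

theorem solv_z (β : Γ) (Y : Subgroup Γ) : Group.IsSolvable (zpowers β) ∨ Group.IsSolvable Y :=
  Or.inl (Group.isSolvable_of_comm fun a b => Subtype.ext (by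
    obtain ⟨_, m, rfl⟩ := a; obtain ⟨_, n, rfl⟩ := b; exact (zpow_mul_comm β m n)))

theorem decomp (hβ : β ^ r = 1) (hY : (Nat.card Y).Coprime r) (hn : β ∈ normalizer (Y : Set Γ)) {y : Γ}
    (hy : y ∈ Y) : ∃ s ∈ ⁅Y, zpowers β⁆, ∃ c ∈ Y, Commute c β ∧ y = s * c := by
  obtain ⟨s, hs, c, hc, e⟩ := coprime_exists_commutator_mul_centralizer _ Y (zpowers_le.2 hn)
    (cop_z hβ hY) (solv_z β Y) y hy
  exact ⟨s, hs, c, hc.1, mem_cent_zpowers.1 hc.2, e⟩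

theorem cmz_cmz (hβ : β ^ r = 1) (hY : (Nat.card Y).Coprime r) (hn : β ∈ normalizer (Y : Set Γ)) :
    ⁅⁅Y, zpowers β⁆, zpowers β⁆ = ⁅Y, zpowers β⁆ :=
  coprime_commutator_commutator _ Y (zpowers_le.2 hn) (cop_z hβ hY) (solv_z β Y)

/-- Two elements of order dividing `r` in the same coset of `Y` are `Y`-conjugate. -/
theorem exists_conj_of_coset (hβ : β ^ r = 1) (hY : (Nat.card Y).Coprime r)
    (hn : β ∈ normalizer (Y : Set Γ)) {γ : Γ} (hγ : γ ^ r = 1) (h : γ * β⁻¹ ∈ Y) :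
    ∃ y ∈ Y, γ = y * β * y⁻¹ := by
  have hγn : γ ∈ normalizer (Y : Set Γ) := by simpa using mul_mem (le_normalizer h) hn
  obtain ⟨k, hk, H⟩ := coprime_exists_conj_mem (zpowers γ) Y (zpowers β) (zpowers_le.2 hγn)
    (cop_z hγ hY) (solv_z γ Y) (fun a ha => by
      have : zpowers γ ≤ Y ⊔ zpowers β := zpowers_le.2 (by
        simpa using mul_mem (mem_sup_left h : _ ∈ Y ⊔ zpowers β) (mem_sup_right (mem_zpowers β)))
      obtain ⟨k, hk, b, hb, e⟩ := (mem_sup_of_normalizes_left (zpowers_le.2 hn)).1 (this ha)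
      exact ⟨k, hk, b, hb, e.symm⟩)
  have h1 := H γ (mem_zpowers γ)
  have h2 : k⁻¹ * γ * k * β⁻¹ ∈ zpowers β ⊓ Y := mem_inf.2 ⟨mul_mem h1 (inv_mem (mem_zpowers β)), by
    have := Y.mul_mem (Y.mul_mem (Y.inv_mem hk) (conj_mem_N hγn hk)) h
    simpa [mul_assoc] using this⟩
  rw [inf_eq_bot_of_coprime_card (cop_z hβ hY), mem_bot, mul_inv_eq_one] at h2
  exact ⟨k, hk, by rw [← h2]; group⟩

theorem cop_of_le {G : Subgroup Γ} (hG : (Nat.card G).Coprime r) (h : Y ≤ G) : (Nat.card Y).Coprime r :=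
  hG.coprime_dvd_left (card_dvd_of_le h)

end coprime

/-- An abelian `2`-group `A = [A, β] ≠ 1`. -/
structure Flat (β : Γ) (A : Subgroup Γ) : Prop where
  ne : A ≠ ⊥
  norm : β ∈ normalizer (A : Set Γ)
  comm : ∀ a ∈ A, ∀ b ∈ A, Commute a b
  two : IsPGroup 2 A
  cm : ⁅A, zpowers β⁆ = A

theorem Flat.conj {β : Γ} {A : Subgroup Γ} (h : Flat β A) (g : Γ) : Flat (g * β * g⁻¹) (g •ᶜ A) where
  ne := fun e => h.ne (cj_eq_bot_iff.1 e)
  norm := by rw [← cj_normalizer]; exact conj_mem_cj h.norm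
  comm := fun _ ha' _ hb' => by
    obtain ⟨a, ha, rfl⟩ := mem_cj'.1 ha'
    obtain ⟨b, hb, rfl⟩ := mem_cj'.1 hb'
    exact commute_conj g (h.comm a ha b hb)
  two := isPGroup_cj g h.two
  cm := by rw [← cj_zpowers, ← cj_commutator, h.cm]

/-- A point `β` on a line `E`. -/
structure Flag (r : ℕ) (G : Subgroup Γ) (β : Γ) (E : Subgroup Γ) : Prop where
  pow : β ^ r = 1
  cop : (Nat.card G).Coprime r
  normG : β ∈ normalizer (G : Set Γ)
  simple : ∀ X ≤ G, G ≤ normalizer (X : Set Γ) → β ∈ normalizer (X : Set Γ) → X = ⊥ ∨ X = G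
  neG : ¬ IsPGroup 2 G
  le : E ≤ G
  ne : E ≠ ⊥
  two : IsPGroup 2 E
  norm : β ∈ normalizer (E : Set Γ)
  cm : ⁅E, zpowers β⁆ = E
  cen : ∀ z ∈ E, Commute z β → ∀ y ∈ E, Commute z y
  sq : ∀ y ∈ E, Commute (y * y) β
  der : ∀ z, z ∈ ⁅E, E⁆ ↔ z ∈ E ∧ Commute z β
  star : ∀ Y ≤ G, Y ≠ G → β ∈ normalizer (Y : Set Γ) → E ≤ Y → Y ≤ normalizer (E : Set Γ)
  cmN : ∀ g ∈ G, g ∈ normalizer (E : Set Γ) → ⁅g, β⁆ ∈ E
  flat : ∀ A ≤ G, Flat β A → ∀ g ∈ G, (∀ a ∈ A, Commute g a) → ∃ y ∈ A, Commute (y⁻¹ * g) β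

namespace Flag

variable {r : ℕ} {G E : Subgroup Γ} {β : Γ} (h : Flag r G β E)
include h

theorem conj {g : Γ} (hg : g ∈ normalizer (G : Set Γ)) : Flag r G (g * β * g⁻¹) (g •ᶜ E) := by
  have hG : g •ᶜ G = G := cj_eq_of_mem_normalizer hg
  have hG' : g⁻¹ •ᶜ G = G := cj_eq_of_mem_normalizer (inv_mem hg)
  have N : ∀ {X : Subgroup Γ}, g * β * g⁻¹ ∈ normalizer (X : Set Γ) →
      β ∈ normalizer ((g⁻¹ •ᶜ X : Subgroup Γ) : Set Γ) := fun hX => by
    rw [← cj_normalizer, mem_cj, inv_inv]; exact hX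
  have L : ∀ {X : Subgroup Γ}, X ≤ G → g⁻¹ •ᶜ X ≤ G := fun hX => hG' ▸ cj_mono _ hX
  refine ⟨by rw [conj_pow, h.pow]; simp, h.cop, mul_mem (mul_mem hg h.normG) (inv_mem hg), ?_, h.neG,
    hG ▸ cj_mono g h.le, fun e => h.ne (cj_eq_bot_iff.1 e), isPGroup_cj g h.two,
    by rw [← cj_normalizer]; exact conj_mem_cj h.norm, by rw [← cj_zpowers, ← cj_commutator, h.cm],
    ?_, ?_, ?_, ?_, ?_, ?_⟩
  · intro X hX h1 h2
    rcases h.simple _ (L hX) (by rw [← cj_normalizer, ← hG']; exact cj_mono _ h1) (N h2) with e | e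
    · exact Or.inl (cj_eq_bot_iff.1 e)
    · exact Or.inr (by rw [cj_eq_iff.1 e, inv_inv, hG])
  · intro _ hz' hc _ hy'
    obtain ⟨z, hz, rfl⟩ := mem_cj'.1 hz'
    obtain ⟨y, hy, rfl⟩ := mem_cj'.1 hy'
    exact commute_conj g (h.cen z hz (commute_conj_iff.1 hc) y hy)
  · intro _ hy'
    obtain ⟨y, hy, rfl⟩ := mem_cj'.1 hy'
    simpa [mul_assoc] using commute_conj g (h.sq y hy)
  · intro z
    rw [← cj_commutator, mem_cj, mem_cj, h.der, ← commute_conj_iff (g := g)]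
    simp [mul_assoc]
  · intro Y hY h1 h2 h3
    rw [← cj_normalizer, le_cj_iff]
    exact h.star _ (L hY) (fun e => h1 (by rw [cj_eq_iff.1 e, inv_inv, hG])) (N h2) (cj_le_iff.1 h3)
  · intro y hy hn
    rw [← cj_normalizer, mem_cj] at hn
    have := h.cmN _ (conj_mem_N' hg hy) hn
    rw [mem_cj]
    simpa [commutatorElement_def, mul_assoc] using this
  · intro A hA hf y hy hc
    have hf' := hf.conj g⁻¹
    simp only [inv_inv, mul_assoc, inv_mul_cancel_left, inv_mul_cancel, mul_one] at hf'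
    obtain ⟨x, hx, H⟩ := h.flat _ (L hA) hf' _ (conj_mem_N' hg hy) fun _ ha' => by
      obtain ⟨a, ha, rfl⟩ := mem_cj'.1 ha'
      simpa using commute_conj g⁻¹ (hc a ha)
    refine ⟨g * x * g⁻¹, by simpa using mem_cj.1 hx, ?_⟩
    simpa [mul_assoc] using commute_conj g H

theorem z_beta {z : Γ} (hz : z ∈ ⁅E, E⁆) : Commute z β := ((h.der z).1 hz).2

theorem z_comm {z y : Γ} (hz : z ∈ ⁅E, E⁆) (hy : y ∈ E) : Commute z y :=
  h.cen z (der_le hz) (h.z_beta hz) y hy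

theorem sq_mem {y : Γ} (hy : y ∈ E) : y * y ∈ ⁅E, E⁆ := (h.der _).2 ⟨E.mul_mem hy hy, h.sq y hy⟩

theorem cm_left {x y t : Γ} (hx : x ∈ E) (hy : ⁅y, t⁆ ∈ ⁅E, E⁆) : ⁅x * y, t⁆ = ⁅y, t⁆ * ⁅x, t⁆ := by
  rw [cm_mul_left, conj_eq_of_commute (h.z_comm hy hx).symm]

theorem cm_right {x y t : Γ} (hx : x ∈ E) (hy : ⁅t, y⁆ ∈ ⁅E, E⁆) : ⁅t, x * y⁆ = ⁅t, x⁆ * ⁅t, y⁆ := by
  rw [cm_mul_right, conj_eq_of_commute (h.z_comm hy hx).symm]

theorem z_sq {z : Γ} (hz : z ∈ ⁅E, E⁆) : z * z = 1 := by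
  have hz' := hz
  rw [Subgroup.commutator_def] at hz'
  induction hz' using closure_induction with
  | mem z hz' =>
    obtain ⟨x, hx, y, hy, rfl⟩ := hz'
    rw [← h.cm_left hx hz, commutatorElement_eq_one_iff_commute]
    exact h.z_comm (h.sq_mem hx) hy
  | one => simp
  | mul a b ha hb iha ihb =>
    rw [mul_assoc, ← mul_assoc b, (h.z_comm hb (der_le ha)).eq, mul_assoc, ihb hb, mul_one, iha ha]
  | inv a ha ih => rw [← mul_inv_rev, ih ha, inv_one]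

theorem z_inv {z : Γ} (hz : z ∈ ⁅E, E⁆) : z⁻¹ = z := inv_eq_of_mul_eq_one_left (h.z_sq hz)

theorem ab_sq {y : Γ} (hy : y ∈ E) : ab E y * ab E y = 1 := by
  rw [← ab_mul hy hy, ab_eq_one (E.mul_mem hy hy)]; exact h.sq_mem hy

theorem ab_inv' {y : Γ} (hy : y ∈ E) : (ab E y)⁻¹ = ab E y := inv_eq_of_mul_eq_one_left (h.ab_sq hy)

variable [Finite Γ]

theorem odd : Odd r := by
  have : Fact (Nat.Prime 2) := ⟨Nat.prime_two⟩
  exact Nat.coprime_two_left.1 (h.cop.coprime_dvd_left (dvd_card_of_isPGroup_le h.two h.ne h.le))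

theorem dec {Y : Subgroup Γ} (hY : Y ≤ G) (hn : β ∈ normalizer (Y : Set Γ)) {y : Γ} (hy : y ∈ Y) :
    ∃ s ∈ ⁅Y, zpowers β⁆, ∃ c ∈ Y, Commute c β ∧ y = s * c :=
  decomp h.pow (cop_of_le h.cop hY) hn hy

theorem cmz_cmz {Y : Subgroup Γ} (hY : Y ≤ G) (hn : β ∈ normalizer (Y : Set Γ)) :
    ⁅⁅Y, zpowers β⁆, zpowers β⁆ = ⁅Y, zpowers β⁆ :=
  Fpf.cmz_cmz h.pow (cop_of_le h.cop hY) hn

theorem cmz_le_E {Y : Subgroup Γ} (hY : Y ≤ G) (hn : Y ≤ normalizer (E : Set Γ)) :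
    ⁅Y, zpowers β⁆ ≤ E := cmz_le_of h.norm fun y hy => h.cmN y (hY hy) (hn hy)

theorem decN {g : Γ} (hg : g ∈ G) (hn : g ∈ normalizer (E : Set Γ)) :
    ∃ x ∈ E, ∃ k ∈ G, k ∈ normalizer (E : Set Γ) ∧ Commute k β ∧ g = x * k := by
  obtain ⟨x, hx, k, hk, hc, e⟩ := h.dec (Y := G ⊓ normalizer (E : Set Γ)) inf_le_left
    (mem_N_inf h.normG (mem_N_N h.norm)) ⟨hg, hn⟩
  exact ⟨x, h.cmz_le_E inf_le_left inf_le_right hx, k, hk.1, hk.2, hc, e⟩

theorem proper {X : Subgroup Γ} (h0 : X ≠ ⊥) (hX : X ≤ G) (h1 : X ≠ G)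
    (hn : β ∈ normalizer (X : Set Γ)) : G ⊓ normalizer (X : Set Γ) ≠ G := fun e =>
  (h.simple X hX (e ▸ inf_le_right) hn).elim h0 h1

theorem ne_of_two {X : Subgroup Γ} (hX : IsPGroup 2 X) : X ≠ G := fun e => h.neG (e ▸ hX)

theorem not_le_N : ¬ G ≤ normalizer (E : Set Γ) := fun e =>
  h.proper h.ne h.le (h.ne_of_two h.two) h.norm (inf_eq_left.2 e)

theorem star' {X : Subgroup Γ} (h0 : X ≠ ⊥) (hX : X ≤ G) (h1 : X ≠ G) (hn : β ∈ normalizer (X : Set Γ))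
    (hE : E ≤ normalizer (X : Set Γ)) {g : Γ} (hg : g ∈ G) (hgX : g ∈ normalizer (X : Set Γ)) :
    g ∈ normalizer (E : Set Γ) :=
  h.star _ inf_le_left (h.proper h0 hX h1 hn) (mem_N_inf h.normG (mem_N_N hn)) (le_inf h.le hE) ⟨hg, hgX⟩

/-- centralisers of `2`-elements centralising `E` and `β`. -/
theorem mem_N_of_commute' {z g : Γ} (hzG : z ∈ G) (hz : z * z = 1) (h1 : z ≠ 1) (hb : Commute z β)
    (hE : ∀ y ∈ E, Commute z y) (hg : g ∈ G) (hc : Commute g z) : g ∈ normalizer (E : Set Γ) :=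
  h.star' (X := zpowers z) (by simpa using h1) (zpowers_le.2 hzG)
    (h.ne_of_two (isPGroup_zpowers (k := 1) (by rw [pow_one, pow_two, hz]))) (mem_N_zpowers hb.symm)
    (fun y hy => mem_N_zpowers (hE y hy).symm) hg (mem_N_zpowers hc)

theorem mem_N_of_commute {z g : Γ} (hz : z ∈ ⁅E, E⁆) (h1 : z ≠ 1) (hg : g ∈ G) (hc : Commute g z) :
    g ∈ normalizer (E : Set Γ) :=
  h.mem_N_of_commute' (h.le (der_le hz)) (h.z_sq hz) h1 (h.z_beta hz) (fun _ hy => h.z_comm hz hy) hg hc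

theorem exists_point {γ : Γ} (hγ : γ ^ r = 1) (hG : γ * β⁻¹ ∈ G) (hn : γ ∈ normalizer (E : Set Γ)) :
    ∃ y ∈ E, γ = y * β * y⁻¹ := by
  obtain ⟨g, hg, rfl⟩ := exists_conj_of_coset (Y := G ⊓ normalizer (E : Set Γ)) h.pow
    (cop_of_le h.cop inf_le_left) (mem_N_inf h.normG (mem_N_N h.norm)) hγ
    (mem_inf.2 ⟨hG, mul_mem hn (inv_mem h.norm)⟩)
  obtain ⟨x, hx, k, -, -, hk, rfl⟩ := h.decN hg.1 hg.2
  exact ⟨x, hx, by rw [mul_inv_rev, ← mul_assoc, mul_assoc x, mul_assoc x, conj_eq_of_commute hk]⟩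

theorem conj_E {y : Γ} (hy : y ∈ E) : Flag r G (y * β * y⁻¹) E := by
  have := h.conj (le_normalizer (h.le hy))
  rwa [cj_eq_of_mem hy] at this

theorem of_point {γ : Γ} (hγ : γ ^ r = 1) (hG : γ * β⁻¹ ∈ G) (hn : γ ∈ normalizer (E : Set Γ)) :
    Flag r G γ E := by
  obtain ⟨y, hy, rfl⟩ := h.exists_point hγ hG hn
  exact h.conj_E hy

/-- Points centralising an element of `Z` lie on the line. -/
theorem point_mem_N' {z γ : Γ} (hzG : z ∈ G) (hz : z * z = 1) (h1 : z ≠ 1) (hb : Commute z β)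
    (hE : ∀ y ∈ E, Commute z y) (hG : γ * β⁻¹ ∈ G) (hc : Commute z γ) : γ ∈ normalizer (E : Set Γ) := by
  have := h.mem_N_of_commute' hzG hz h1 hb hE hG (hc.symm.mul_left hb.symm.inv_left)
  simpa using mul_mem this h.norm

theorem point_mem_N {z γ : Γ} (hz : z ∈ ⁅E, E⁆) (h1 : z ≠ 1) (hG : γ * β⁻¹ ∈ G) (hc : Commute z γ) :
    γ ∈ normalizer (E : Set Γ) :=
  h.point_mem_N' (h.le (der_le hz)) (h.z_sq hz) h1 (h.z_beta hz) (fun _ hy => h.z_comm hz hy) hG hc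

/-- Two lines through the same point, one normalising the other, are equal. -/
theorem le_of_le_N {E' : Subgroup Γ} (h' : Flag r G β E') (hn : E' ≤ normalizer (E : Set Γ)) : E' ≤ E :=
  h'.cm ▸ h.cmz_le_E h'.le hn

theorem eq_of_le_N {E' : Subgroup Γ} (h' : Flag r G β E') (hn : E' ≤ normalizer (E : Set Γ)) : E' = E :=
  have h1 := h.le_of_le_N h' hn
  le_antisymm h1 (h'.le_of_le_N h (h'.star E h.le (h.ne_of_two h.two) h.norm h1))

theorem conj_pt {t y : Γ} (ht : t ∈ G) (hn : t ∈ normalizer (E : Set Γ)) (hy : y ∈ E) :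
    ab E ⁅β * y * β⁻¹, t⁆ = ab E (β * ⁅y, t⁆ * β⁻¹) := by
  obtain ⟨x, hx, k, -, hk, hc, rfl⟩ := h.decN ht hn
  rw [ab_cm_right hk hx (conj_mem_N h.norm hy), ← ab_conj_congr h.norm (cm_mem_left hk hy)
    (cm_mem_left hn hy) (ab_cm_right hk hx hy).symm, conjugate_commutatorElement,
    conj_eq_of_commute hc.symm]

theorem norm_ct {t : Γ} (ht : t ∈ G) (hn : t ∈ normalizer (E : Set Γ)) :
    β ∈ normalizer (ct E t : Set Γ) := by
  refine mem_N_of_forall fun y hy => ⟨conj_mem_N h.norm hy.1, ?_⟩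
  rw [← ab_eq_one (cm_mem_left hn (conj_mem_N h.norm hy.1)), h.conj_pt ht hn hy.1,
    ab_eq_one (conj_mem_N h.norm (cm_mem_left hn hy.1))]
  exact conj_mem_N (mem_N_der h.norm) hy.2

theorem norm_wt {t : Γ} (ht : t ∈ G) (hn : t ∈ normalizer (E : Set Γ)) {P : Subgroup Γ} (hP : P ≤ E)
    (hPn : β ∈ normalizer (P : Set Γ)) : β ∈ normalizer (wt hn hP : Set Γ) := by
  refine mem_N_of_forall fun w ⟨hw, y, hy, e⟩ => ⟨conj_mem_N h.norm hw, _, conj_mem_N hPn hy, ?_⟩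
  rw [h.conj_pt ht hn (hP hy)]
  exact ab_conj_congr h.norm hw (cm_mem_left hn (hP hy)) e

/-- An element centralising `β` and `E₁ / Z` centralises `[E₁, β]`. -/
theorem cmz_ct_comm {k : Γ} (hb : Commute k β) {x : Γ}
    (hx : x ∈ ⁅ct E k, zpowers β⁆) : Commute k x := by
  have : ⁅ct E k, zpowers β⁆ ≤ centralizer {k} := by
    refine commutator_le.2 fun y hy _ ⟨n, e⟩ => e ▸ mem_cent_single.2 ?_
    have h1 : ⁅β ^ n * y⁻¹ * (β ^ n)⁻¹, k⁆ = ⁅y⁻¹, k⁆ := by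
      conv_lhs => rw [← conj_eq_of_commute (hb.symm.zpow_left n), ← conjugate_commutatorElement]
      exact conj_eq_of_commute ((h.z_beta ((ct E k).inv_mem hy).2).symm.zpow_left n)
    have h2 : ⁅y, β ^ n⁆ = y * (β ^ n * y⁻¹ * (β ^ n)⁻¹) := by
      simp only [commutatorElement_def, mul_assoc]
    rw [← commutatorElement_eq_one_iff_commute]
    simp only [h2]
    rw [h.cm_left hy.1 (h1 ▸ ((ct E k).inv_mem hy).2), h1,
      ← h.cm_left hy.1 ((ct E k).inv_mem hy).2, mul_inv_cancel, commutatorElement_one_left]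
  exact (mem_cent_single.1 (this hx)).symm

theorem comm_of_ct {k : Γ} (hb : Commute k β) (hk : E ≤ ct E k) {x : Γ} (hx : x ∈ E) : Commute k x :=
  h.cmz_ct_comm hb (by rw [le_antisymm ct_le hk, h.cm]; exact hx)

/-- Elements of `N(E)` acting trivially on `E / Z`. -/
theorem dec_triv {t : Γ} (ht : t ∈ G) (hn : t ∈ normalizer (E : Set Γ)) (hE : E ≤ ct E t) :
    ∃ x ∈ E, ∃ k ∈ G, Commute k β ∧ (∀ y ∈ E, Commute k y) ∧ t = x * k := by
  obtain ⟨x, hx, k, hkG, hk, hc, rfl⟩ := h.decN ht hn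
  rw [ct_mul hk hx] at hE
  exact ⟨x, hx, k, hkG, hc, fun y hy => h.comm_of_ct hc hE hy, rfl⟩

/-- Decomposition of an involution of `N(E)`. -/
theorem dec_inv {a : Γ} (ha : a ∈ G) (hn : a ∈ normalizer (E : Set Γ)) (h2 : a * a = 1) :
    ∃ x k, ∃ P : Subgroup Γ, P ≤ E ∧ β ∈ normalizer (P : Set Γ) ∧ x ∈ P ∧ (∀ y ∈ P, Commute k y) ∧
      k ∈ G ∧ k ∈ normalizer (E : Set Γ) ∧ Commute k β ∧ a = x * k := by
  obtain ⟨x, hx, k, hkG, hk, hc, rfl⟩ := h.decN ha hn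
  have h3 : x * (k * x * k⁻¹) = (k * k)⁻¹ := by
    rw [eq_inv_iff_mul_eq_one, ← h2]; group
  have h4 : x * (k * x * k⁻¹) ∈ ⁅E, E⁆ := (h.der _).2 ⟨E.mul_mem hx (conj_mem_N hk hx), by
    rw [h3]; exact (hc.mul_left hc).inv_left⟩
  have h5 : x ∈ ct E k := ⟨hx, by
    rw [← ab_eq_one (E.mul_mem hx (conj_mem_N hk hx)), ab_mul hx (conj_mem_N hk hx)] at h4
    have : ⁅x, k⁆ = x * (k * x * k⁻¹)⁻¹ := by simp only [commutatorElement_def]; group
    rw [← ab_eq_one (cm_mem_left hk hx), this, ab_mul hx (E.inv_mem (conj_mem_N hk hx)),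
      ab_inv (conj_mem_N hk hx), h.ab_inv' (conj_mem_N hk hx), h4]⟩
  have hcn := h.norm_ct hkG hk
  obtain ⟨s, hs, c, hcc, hcb, rfl⟩ := h.dec (ct_le.trans h.le) hcn h5
  have hcz : c ∈ ⁅E, E⁆ := (h.der c).2 ⟨hcc.1, hcb⟩
  have hle : ⁅ct E k, zpowers β⁆ ≤ E := (cmz_le hcn).trans ct_le
  exact ⟨s, c * k, _, hle, mem_N_cmz hcn, hs, fun y hy =>
    (h.z_comm hcz (hle hy)).mul_left (h.cmz_ct_comm hc hy), G.mul_mem (h.le hcc.1) hkG,
    mul_mem (le_normalizer hcc.1) hk, hcb.mul_left hc, mul_assoc _ _ _⟩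

/-- A criterion for fixing a point of the line. -/
theorem fix_of_ab {x k y : Γ} (hx : x ∈ E) (hk : k ∈ normalizer (E : Set Γ)) (hb : Commute k β)
    (hy : y ∈ E) (e : ab E x = ab E ⁅y, x * k⁆) : ∃ u ∈ E, Commute (x * k) (u * β * u⁻¹) := by
  have hn : x * k ∈ normalizer (E : Set Γ) := mul_mem (le_normalizer hx) hk
  have h1 : ⁅y, x * k⁆ * x ∈ ⁅E, E⁆ := by
    rw [← ab_eq_one (E.mul_mem (cm_mem_left hn hy) hx), ab_mul (cm_mem_left hn hy) hx, ← e, h.ab_sq hx]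
  refine ⟨y⁻¹, E.inv_mem hy, (commute_conj_left.2 ?_).symm⟩
  rw [inv_inv, conj_eq_cm_mul, ← mul_assoc]
  exact ((h.z_beta h1).mul_left hb).symm

section flat

variable {A : Subgroup Γ}

theorem flat_eq_one (hA : Flat β A) (hAG : A ≤ G) {a : Γ} (ha : a ∈ A) (hb : Commute a β) : a = 1 := by
  have : IsMulCommutative A := ⟨⟨fun a b => Subtype.ext (hA.comm a a.2 b b.2)⟩⟩
  have h1 := (Cfsg.Agent.S0055.result (zpowers β) A (zpowers_le.2 hA.norm)
    (cop_z h.pow (cop_of_le h.cop hAG))).1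
  rw [hA.cm] at h1
  exact mem_bot.1 (h1 ▸ mem_inf.2 ⟨mem_inf.2 ⟨ha, mem_cent_zpowers.2 hb⟩, ha⟩)

theorem flat_sq (hA : Flat β A) (hAE : A ≤ E) {a : Γ} (ha : a ∈ A) : a * a = 1 :=
  h.flat_eq_one hA (hAE.trans h.le) (A.mul_mem ha ha) (h.sq a (hAE ha))

/-- An invariant abelian `2`-subgroup is centralised by `β` or contains a flat subgroup. -/
theorem flat_cmz (hAG : A ≤ G) (hn : β ∈ normalizer (A : Set Γ)) (h2 : IsPGroup 2 A)
    (hc : ∀ a ∈ A, ∀ b ∈ A, Commute a b) {a : Γ} (ha : a ∈ A) (hb : ¬ Commute a β) :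
    Flat β ⁅A, zpowers β⁆ :=
  ⟨fun e => hb (by
      have := commutator_mem_commutator ha (mem_zpowers β)
      rwa [e, mem_bot, commutatorElement_eq_one_iff_commute] at this),
    mem_N_cmz hn, fun a ha b hb => hc a (cmz_le hn ha) b (cmz_le hn hb), h2.to_le (cmz_le hn),
    h.cmz_cmz hAG hn⟩

/-- Flat subgroups are irreducible. -/
theorem flat_le (hA : Flat β A) (hAG : A ≤ G) {P : Subgroup Γ} (hn : β ∈ normalizer (P : Set Γ))
    {a : Γ} (ha : a ∈ A) (haP : a ∈ P) (h1 : a ≠ 1) : A ≤ P := by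
  have hn' := mem_N_inf hA.norm hn
  have hf := h.flat_cmz (inf_le_left.trans hAG) hn' (hA.two.to_le inf_le_left)
    (fun a ha b hb => hA.comm a ha.1 b hb.1) (mem_inf.2 ⟨ha, haP⟩)
    fun hb => h1 (h.flat_eq_one hA hAG ha hb)
  have hle := cmz_le hn'
  intro g hg
  obtain ⟨y, hy, H⟩ := h.flat _ (hle.trans (inf_le_left.trans hAG)) hf g (hAG hg)
    fun a ha => hA.comm g hg a (hle ha).1
  have := h.flat_eq_one hA hAG (A.mul_mem (A.inv_mem (hle hy).1) hg) H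
  rw [inv_mul_eq_one] at this
  exact this ▸ (hle hy).2

theorem inAZ_of_comm (hA : Flat β A) (hAE : A ≤ E) {x : Γ} (hx : x ∈ E) (hc : ∀ a ∈ A, Commute x a) :
    ∃ y ∈ A, ab E y = ab E x := by
  obtain ⟨y, hy, H⟩ := h.flat A (hAE.trans h.le) hA x (h.le hx) hc
  exact ⟨y, hy, (ab_eq_iff (hAE hy) hx).2 ((h.der _).2 ⟨E.mul_mem (E.inv_mem (hAE hy)) hx, H⟩)⟩

theorem comm_of_ab {x y w : Γ} (hx : x ∈ E) (hy : y ∈ E) (hw : w ∈ E) (e : ab E x = ab E y)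
    (hc : Commute x w) : Commute y w := by
  have := hc.mul_left (h.z_comm ((ab_eq_iff hx hy).1 e) hw)
  rwa [mul_inv_cancel_left] at this

/-- If `Z ≠ 1` then `Z` is the centre of `E`. -/
theorem mem_der_of_central (hZ : ⁅E, E⁆ ≠ ⊥) {x : Γ} (hx : x ∈ E) (hc : ∀ y ∈ E, Commute x y) :
    x ∈ ⁅E, E⁆ := by
  by_contra hxZ
  have hn := mem_N_inf h.norm (mem_N_C h.norm)
  have hf := h.flat_cmz (inf_le_left.trans h.le) hn (h.two.to_le inf_le_left)
    (fun a ha b hb => hb.2 a ha.1) (mem_inf.2 ⟨hx, fun y hy => (hc y hy).symm⟩)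
    fun hb => hxZ ((h.der x).2 ⟨hx, hb⟩)
  have hle := cmz_le hn
  refine hZ (eq_bot_iff.2 (commutator_le.2 fun a ha b hb => ?_))
  obtain ⟨y, hy, e⟩ := h.inAZ_of_comm hf (hle.trans inf_le_left) ha fun c hc => (hle hc).2 a ha
  exact mem_bot.2 (commutatorElement_eq_one_iff_commute.2
    (h.comm_of_ab (hle hy).1 ha hb e ((hle hy).2 b hb).symm))

/-- The squares trick. -/
theorem exists_flat {x : Γ} {P : Subgroup Γ} (hP : P ≤ E) (hn : β ∈ normalizer (P : Set Γ)) (hx : x ∈ P)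
    (hxZ : x ∉ ⁅E, E⁆) (H : ∀ y ∈ P, Commute y x → y * y = 1) :
    ∃ A, Flat β A ∧ A ≤ P ∧ (∀ a ∈ A, Commute a x) ∧ ∃ y ∈ A, ab E y = ab E x := by
  set c : ℤ → Γ := fun i => β ^ i * x * (β ^ i)⁻¹ with hc
  have hcP : ∀ i, c i ∈ P := fun i => conj_mem_N (zpow_mem hn i) hx
  have hcc : ∀ i j, β ^ i * c j * (β ^ i)⁻¹ = c (i + j) := fun i j => by simp only [hc]; group
  have hc0 : c 0 = x := by simp [hc]
  have hz : ∀ i j k, ⁅c (k + i), c (k + j)⁆ = ⁅c i, c j⁆ := fun i j k => by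
    rw [← hcc, ← hcc, ← conjugate_commutatorElement]
    exact conj_eq_of_commute ((h.z_beta (commutator_mem_commutator (hP (hcP i))
      (hP (hcP j)))).symm.zpow_left k)
  have hsq : ∀ i, c i * c i = x * x := fun i => by
    have : c i * c i = β ^ i * (x * x) * (β ^ i)⁻¹ := by simp only [hc]; group
    rw [this]; exact conj_eq_of_commute ((h.sq x (hP hx)).symm.zpow_left i)
  have h1 : ∀ i, Commute (c i) (c (-i)) := fun i => by
    have h2 : Commute (c i * c (-i)) x := by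
      rw [← commutatorElement_eq_one_iff_commute, h.cm_left (hP (hcP i))
        (commutator_mem_commutator (hP (hcP _)) (hP hx)), ← hc0]
      have := hz (-i) 0 i
      rw [add_neg_cancel, add_zero] at this
      rw [← this, ← commutatorElement_inv, inv_mul_cancel]
    have h3 := H _ (P.mul_mem (hcP i) (hcP _)) h2
    have h4 : c i * c (-i) * (c i * c (-i)) =
        c i * c i * ⁅(c i)⁻¹, c (-i)⁆ * (c (-i) * c (-i)) := by
      simp only [commutatorElement_def]; group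
    rw [h4, hsq, hsq, mul_assoc, (h.z_comm (commutator_mem_commutator (hP (P.inv_mem (hcP i)))
      (hP (hcP _))) (hP (P.mul_mem hx hx))).eq, ← mul_assoc, h.z_sq (h.sq_mem (hP hx)), one_mul,
      commutatorElement_eq_one_iff_commute] at h3
    simpa using h3.inv_left
  have h2 : ∀ i j, Commute (c i) (c j) := fun i j => by
    obtain ⟨m, hm⟩ := h.odd
    have h3 := (commutatorElement_eq_one_iff_commute.2 (h1 ((i - j) * (m + 1))))
    rw [← hz _ _ (j + (i - j) * (m + 1))] at h3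
    have e1 : j + (i - j) * (m + 1) + -((i - j) * (m + 1)) = j := by ring
    have e2 : c (j + (i - j) * (m + 1) + (i - j) * (m + 1)) = c i := by
      have : j + (i - j) * (m + 1) + (i - j) * (m + 1) = i + (r : ℤ) * (i - j) := by
        rw [hm]; push_cast; ring
      simp only [hc, this, zpow_add, zpow_mul, zpow_natCast, h.pow, one_zpow, mul_one]
    rwa [e1, e2, commutatorElement_eq_one_iff_commute] at h3
  set B := closure (Set.range c) with hB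
  have hBP : B ≤ P := (closure_le _).2 (by rintro _ ⟨i, rfl⟩; exact hcP i)
  have hBc : ∀ a ∈ B, ∀ b ∈ B, Commute a b := fun a ha b hb => by
    have := isMulCommutative_closure (k := Set.range c) (by
      rintro _ ⟨i, rfl⟩ _ ⟨j, rfl⟩; exact h2 i j)
    exact congrArg Subtype.val (mul_comm' (⟨a, ha⟩ : B) ⟨b, hb⟩)
  have hBn : β ∈ normalizer (B : Set Γ) := by
    refine mem_normalizer_of_cj_le ?_
    rw [hB, cj_closure, closure_le]
    rintro _ ⟨_, ⟨i, rfl⟩, rfl⟩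
    exact subset_closure ⟨1 + i, by rw [← hcc, zpow_one]⟩
  have hxB : x ∈ B := subset_closure ⟨0, hc0⟩
  have hBG := hBP.trans (hP.trans h.le)
  refine ⟨_, h.flat_cmz hBG hBn (h.two.to_le (hBP.trans hP)) hBc hxB
    fun hb => hxZ ((h.der x).2 ⟨hP hx, hb⟩), (cmz_le hBn).trans hBP,
    fun a ha => hBc a (cmz_le hBn ha) x hxB, ?_⟩
  obtain ⟨s, hs, k, hk, hb, e⟩ := h.dec hBG hBn hxB
  refine ⟨s, hs, (ab_eq_iff (hP (hBP (cmz_le hBn hs))) (hP hx)).2 ?_⟩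
  rw [e, inv_mul_cancel_left]
  exact (h.der k).2 ⟨hP (hBP hk), hb⟩

end flat

end Flag

end CL.Fpf
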