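/-
The centre `Z = [E, E]` of a line has trivial normaliser intersection: no nontrivial element of the centre of
another line normalises `E`.
-/
import Mathlib
import Cfsg.Agent.PLOC.FpfLine

set_option autoImplicit false
set_option linter.unusedSectionVars false

namespace CL.Fpf

open Subgroup CL.MSS
open scoped commutatorElement

variable {Γ : Type*} [Group Γ] [Finite Γ] {r : ℕ} {G E E' : Subgroup Γ} {β β' : Γ}

/-- `t` acts on `E / Z` like a transvection. -/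
structure TV (G E : Subgroup Γ) (t : Γ) : Prop where
  mem : t ∈ G
  norm : t ∈ normalizer (E : Set Γ)
  cen : ∀ z ∈ ⁅E, E⁆, Commute t z
  sq : E ≤ ct E (t * t)
  nt : ¬ E ≤ ct E t

theorem cj_ct (g t : Γ) (E : Subgroup Γ) : g •ᶜ ct E t = ct (g •ᶜ E) (g * t * g⁻¹) := by
  ext y
  rw [mem_cj, mem_ct, mem_ct, ← cj_commutator, mem_cj, mem_cj]
  simp [commutatorElement_def, mul_assoc]

theorem TV.conj {t g : Γ} (h : TV G E t) (hg : g ∈ G) : TV G (g •ᶜ E) (g * t * g⁻¹) where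
  mem := mul_mem (mul_mem hg h.mem) (inv_mem hg)
  norm := by rw [← cj_normalizer]; exact conj_mem_cj h.norm
  cen := fun _ hz' => by
    rw [← cj_commutator] at hz'
    obtain ⟨z, hz, rfl⟩ := mem_cj'.1 hz'
    exact commute_conj g (h.cen z hz)
  sq := by rw [conj_mul, ← cj_ct]; exact cj_mono g h.sq
  nt := by rw [← cj_ct, cj_le_cj_iff]; exact h.nt

theorem cm_cm_of_inv {y c : Γ} (h : ⁅y, c⁆⁻¹ = ⁅y, c⁆) : ⁅y, ⁅y, c⁆⁆ = ⁅y * y, c⁆ := by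
  rw [cm_mul_left, commutatorElement_def, h]

theorem mem_of_ab {P : Subgroup Γ} (hZ : ⁅E, E⁆ ≤ P) {x y : Γ} (hx : x ∈ E) (hy : y ∈ E) (hxP : x ∈ P)
    (e : ab E x = ab E y) : y ∈ P := by
  have := P.mul_mem hxP (hZ ((ab_eq_iff hx hy).1 e))
  rwa [mul_inv_cancel_left] at this

namespace Flag

variable (h : Flag r G β E)
include h

theorem cm_mem_ct {t u : Γ} (hn : t ∈ normalizer (E : Set Γ)) (hs : E ≤ ct E (t * t)) (hu : u ∈ E) :
    ⁅u, t⁆ ∈ ct E t := by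
  have hw := cm_mem_left hn hu
  refine ⟨hw, ?_⟩
  have h1 := (hs hu).2
  rw [cm_mul_right, ← ab_eq_one (E.mul_mem hw (conj_mem_N hn hw)), ab_mul hw (conj_mem_N hn hw)] at h1
  have : ⁅⁅u, t⁆, t⁆ = ⁅u, t⁆ * (t * ⁅u, t⁆ * t⁻¹)⁻¹ := by rw [commutatorElement_def ⁅u, t⁆]; group
  rw [← ab_eq_one (cm_mem_left hn hw), this, ab_mul hw (E.inv_mem (conj_mem_N hn hw)),
    ab_inv (conj_mem_N hn hw), h.ab_inv' (conj_mem_N hn hw), h1]

theorem wt_le_ct {t : Γ} (hn : t ∈ normalizer (E : Set Γ)) (hs : E ≤ ct E (t * t)) {P : Subgroup Γ}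
    (hP : P ≤ E) : wt hn hP ≤ ct E t := fun _ ⟨hw, _, hy, e⟩ =>
  mem_ct_congr hn (h.cm_mem_ct hn hs (hP hy)) hw e.symm

theorem le_ct_one : E ≤ ct E 1 := fun y hy => ⟨hy, by simp⟩

theorem tv_struct {t : Γ} (ht : TV G E t) : ∃ A, Flat β A ∧ A ≤ wt ht.norm le_rfl ∧
    ∀ x ∈ ct E t, ∃ y ∈ A, ab E y = ab E x := by
  have hn := ht.norm
  have h1 : ∀ x ∈ ct E t, ∀ w ∈ wt hn le_rfl, Commute w x := by
    rintro x hx w ⟨hw, u, hu, e⟩
    refine h.comm_of_ab (cm_mem_left hn hu) hw hx.1 e.symm ?_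
    have h2 : ⁅u, t⁆ = u * (t * u⁻¹ * t⁻¹) := by simp only [commutatorElement_def, mul_assoc]
    have hu' := conj_mem_N hn (E.inv_mem hu)
    have h3 : ⁅t * u⁻¹ * t⁻¹, x⁆ = ⁅u⁻¹, x⁆ := by
      have h4 : ⁅t, x⁆ ∈ ⁅E, E⁆ := by rw [← commutatorElement_inv]; exact inv_mem hx.2
      have h5 := h.cm_right (t := t * u⁻¹ * t⁻¹) (der_le h4) (commutator_mem_commutator hu' hx.1)
      rw [← conj_eq_cm_mul, ← conjugate_commutatorElement,
        commutatorElement_eq_one_iff_commute.2 (h.z_comm h4 hu').symm, one_mul] at h5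
      rw [← h5]
      exact conj_eq_of_commute (ht.cen _ (commutator_mem_commutator (E.inv_mem hu) hx.1))
    rw [← commutatorElement_eq_one_iff_commute, h2, h.cm_left hu (commutator_mem_commutator hu' hx.1), h3,
      ← h.cm_left hu (commutator_mem_commutator (E.inv_mem hu) hx.1), mul_inv_cancel,
      commutatorElement_one_left]
  have hW : wt hn le_rfl ≤ E := fun _ hw => hw.1
  have hWn := h.norm_wt ht.mem hn le_rfl h.norm
  obtain ⟨u, hu, hu'⟩ := SetLike.not_le_iff_exists.1 ht.nt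
  have hf := h.flat_cmz (hW.trans h.le) hWn (h.two.to_le hW)
    (fun a ha b hb => h1 b (h.wt_le_ct hn ht.sq le_rfl hb) a ha) (cm_mem_wt hn le_rfl hu)
    fun hb => hu' ⟨hu, (h.der _).2 ⟨cm_mem_left hn hu, hb⟩⟩
  exact ⟨_, hf, cmz_le hWn, fun x hx => h.inAZ_of_comm hf ((cmz_le hWn).trans hW) hx.1
    fun a ha => (h1 x hx a (cmz_le hWn ha)).symm⟩

theorem tv_ct_le {t : Γ} (ht : TV G E t) {P : Subgroup Γ} (hZ : ⁅E, E⁆ ≤ P)
    (hn : β ∈ normalizer (P : Set Γ)) {x : Γ} (hx : x ∈ ct E t) (hxP : x ∈ P) (hxZ : x ∉ ⁅E, E⁆) :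
    ct E t ≤ P := by
  obtain ⟨A, hA, hAW, H⟩ := h.tv_struct ht
  have hAE : A ≤ E := fun _ ha => (hAW ha).1
  obtain ⟨y, hy, e⟩ := H x hx
  have hAP := h.flat_le hA (hAE.trans h.le) hn hy (mem_of_ab hZ hx.1 (hAE hy) hxP e.symm) fun e' =>
    hxZ (by rw [← ab_eq_one hx.1, ← e, e', ab_eq_one E.one_mem]; exact one_mem _)
  intro x' hx'
  obtain ⟨y', hy', e'⟩ := H x' hx'
  exact mem_of_ab hZ (hAE hy') hx'.1 (hAP hy') e'

theorem tv_cover {t : Γ} (ht : TV G E t) {P : Subgroup Γ} (hP : P ≤ E) (hn : β ∈ normalizer (P : Set Γ))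
    (hc : ¬ P ≤ ct E t) {y : Γ} (hy : y ∈ E) : ∃ y' ∈ P, y'⁻¹ * y ∈ ct E t := by
  obtain ⟨u, hu, hu'⟩ := SetLike.not_le_iff_exists.1 hc
  have h1 := h.tv_ct_le ht (der_le_wt ht.norm hP) (h.norm_wt ht.mem ht.norm hP hn)
    (h.cm_mem_ct ht.norm ht.sq (hP hu)) (cm_mem_wt ht.norm hP hu) fun e => hu' ⟨hP hu, e⟩
  obtain ⟨-, y', hy', e⟩ := h1 (h.cm_mem_ct ht.norm ht.sq hy)
  have h2 := E.mul_mem (E.inv_mem (hP hy')) hy
  refine ⟨y', hy', h2, ?_⟩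
  rw [← ab_eq_one (cm_mem_left ht.norm h2), ab_cm_mul ht.norm (E.inv_mem (hP hy')) hy,
    ab_cm_inv ht.norm (hP hy'), e, inv_mul_cancel]

/-- If a transvection-like element exists, `E / Z` has length two. -/
theorem tv_len {t : Γ} (ht : TV G E t) {P Q : Subgroup Γ} (hZ : ⁅E, E⁆ ≤ P) (hPQ : P ≤ Q) (hQ : Q ≤ E)
    (hP : β ∈ normalizer (P : Set Γ)) (hQn : β ∈ normalizer (Q : Set Γ)) (h1 : ¬ P ≤ ⁅E, E⁆)
    (h2 : ¬ Q ≤ P) : E ≤ Q := by
  by_cases hc : P ≤ ct E t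
  · obtain ⟨x, hx, hx'⟩ := SetLike.not_le_iff_exists.1 h1
    have h3 := h.tv_ct_le ht hZ hP (hc hx) hx hx'
    intro y hy
    obtain ⟨y', hy', H⟩ := h.tv_cover ht hQ hQn (fun e => h2 (e.trans h3)) hy
    simpa using Q.mul_mem hy' (hPQ (h3 H))
  · obtain ⟨x, hx, hx'⟩ := SetLike.not_le_iff_exists.1 h2
    obtain ⟨u, hu, H⟩ := h.tv_cover ht (hPQ.trans hQ) hP hc (hQ hx)
    have h3 := h.tv_ct_le ht (hZ.trans hPQ) hQn H (Q.mul_mem (Q.inv_mem (hPQ hu)) hx)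
      fun e => hx' (by simpa using P.mul_mem hu (hZ e))
    intro y hy
    obtain ⟨y', hy', H⟩ := h.tv_cover ht (hPQ.trans hQ) hP hc hy
    simpa using Q.mul_mem (hPQ hy') (h3 H)

theorem mem_ct_of_comm {x k : Γ} (hx : x ∈ E) (hk : k ∈ normalizer (E : Set Γ)) (hc : Commute k x) :
    x ∈ ct E (x * k) := by
  rw [ct_mul hk hx]
  exact ⟨hx, by rw [commutatorElement_eq_one_iff_commute.2 hc.symm]; exact one_mem _⟩

/-- An involution centralising `Z` and fixing no point of the line acts trivially on `E / Z`. -/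
theorem triv_of_nofix {a : Γ} (ha : a ∈ G) (hn : a ∈ normalizer (E : Set Γ)) (h2 : a * a = 1)
    (hc : ∀ z ∈ ⁅E, E⁆, Commute a z) (hf : ∀ u ∈ E, ¬ Commute a (u * β * u⁻¹)) : E ≤ ct E a := by
  by_contra hne
  have ht : TV G E a := ⟨ha, hn, hc, h2 ▸ h.le_ct_one, hne⟩
  obtain ⟨A, -, hAW, H⟩ := h.tv_struct ht
  obtain ⟨x, k, P, hP, -, hx, hkP, -, hk, hb, rfl⟩ := h.dec_inv ha hn h2
  obtain ⟨y, hy, e⟩ := H x (h.mem_ct_of_comm (hP hx) hk (hkP x hx))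
  obtain ⟨-, u, hu, e'⟩ := hAW hy
  obtain ⟨v, hv, H'⟩ := h.fix_of_ab (hP hx) hk hb hu (e.symm.trans e')
  exact hf v hv H'

theorem mem_ct_of_commute (hZ : ⁅E, E⁆ ≠ ⊥) {t x k : Γ} (hn : t ∈ normalizer (E : Set Γ)) (hx : x ∈ E)
    (hk : ∀ y ∈ E, Commute k y) (hc : Commute t (x * k)) : x ∈ ct E t := by
  have h1 : x⁻¹ * (t * x * t⁻¹) = k * (t * k * t⁻¹)⁻¹ := by
    have := conj_eq_of_commute hc
    rw [← conj_mul, ← eq_mul_inv_iff_mul_eq] at this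
    rw [this]; group
  have h2 := h.mem_der_of_central hZ (E.mul_mem (E.inv_mem hx) (conj_mem_N hn hx)) fun y hy => by
    rw [h1]
    exact (hk y hy).mul_left (commute_conj_left.2 (hk _ (conj_mem_N' hn hy))).inv_left
  have h3 : ⁅x, t⁆ = x * (x⁻¹ * (t * x * t⁻¹))⁻¹ * x⁻¹ := by simp only [commutatorElement_def]; group
  exact ⟨hx, h3 ▸ conj_mem_N (mem_N_der (le_normalizer hx)) (inv_mem h2)⟩

theorem cm_beta {x k y : Γ} (hb : Commute k β) (hx : x ∈ E) (hy : y ∈ E) (e : ab E y = ab E x) :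
    ⁅β, x * k⁆ = ⁅β, y⁆ := by
  have h1 : x * k = y * (y⁻¹ * x * k) := by group
  rw [h1, cm_mul_right, commutatorElement_eq_one_iff_commute.2
    ((h.z_beta ((ab_eq_iff hy hx).1 e)).mul_left hb).symm]
  simp

theorem star_closure {s : Set Γ} {a : Γ} (ha : a ∈ s) (h1 : a ≠ 1)
    (hs : ∀ g ∈ s, g ∈ G ∧ g ∈ normalizer (E : Set Γ)) (hb : ∀ g ∈ s, ⁅β, g⁆ ∈ closure s)
    (hE : ∀ y ∈ E, ∀ g ∈ s, ⁅y, g⁆ ∈ closure s) (hE' : E' ≤ G)
    (H : ∀ y ∈ E', ∀ g ∈ s, ⁅y, g⁆ ∈ closure s) : E' ≤ normalizer (E : Set Γ) := fun y hy =>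
  h.star' (X := closure s) (fun e => h1 (mem_bot.1 (e ▸ subset_closure ha)))
    ((closure_le _).2 fun g hg => (hs g hg).1)
    (fun e => h.not_le_N (e ▸ (closure_le _).2 fun g hg => (hs g hg).2)) (mem_N_of_cm rfl hb)
    (fun y hy => mem_N_of_cm rfl (hE y hy)) (hE' hy) (mem_N_of_cm rfl (H y hy))

end Flag

/-- Two distinct lines. -/
structure Pair (r : ℕ) (G : Subgroup Γ) (β : Γ) (E : Subgroup Γ) (β' : Γ) (E' : Subgroup Γ) : Prop where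
  fl : Flag r G β E
  fl' : Flag r G β' E'
  hb : β' * β⁻¹ ∈ G
  conj : ∃ g ∈ G, E' = g •ᶜ E
  ne : E ≠ E'

namespace Pair

variable (h : Pair r G β E β' E')
include h

theorem symm : Pair r G β' E' β E where
  fl := h.fl'
  fl' := h.fl
  hb := by simpa using G.inv_mem h.hb
  conj := by
    obtain ⟨g, hg, e⟩ := h.conj
    exact ⟨g⁻¹, G.inv_mem hg, by rw [e, inv_cj_cj]⟩
  ne := h.ne.symm

theorem z_inter {z : Γ} (hz : z ∈ ⁅E, E⁆) (hz' : z ∈ ⁅E', E'⁆) : z = 1 := by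
  by_contra h1
  have h2 := h.fl.of_point h.fl'.pow h.hb (h.fl.point_mem_N hz h1 h.hb (h.fl'.z_beta hz'))
  exact h.ne (h2.eq_of_le_N h.fl' fun y hy =>
    h.fl.mem_N_of_commute hz h1 (h.fl'.le hy) (h.fl'.z_comm hz' hy).symm).symm

theorem comm_zz {a b : Γ} (ha : a ∈ ⁅E', E'⁆) (haN : a ∈ normalizer (E : Set Γ)) (hb : b ∈ ⁅E, E⁆)
    (hbN : b ∈ normalizer (E' : Set Γ)) : Commute b a :=
  commutatorElement_eq_one_iff_commute.1
    (h.z_inter (cm_mem_left (mem_N_der haN) hb) (cm_mem_right (mem_N_der hbN) ha))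

theorem exists_back {a : Γ} (ha : a ∈ ⁅E', E'⁆) (h1 : a ≠ 1) (haN : a ∈ normalizer (E : Set Γ)) :
    ∃ b ∈ ⁅E, E⁆, b ≠ 1 ∧ b ∈ normalizer (E' : Set Γ) := by
  have : Fact (Nat.Prime 2) := ⟨Nat.prime_two⟩
  obtain ⟨g, -, e⟩ := h.conj
  have h2 := inf_centralizer_ne_bot (P := zpowers a) (A := ⁅E, E⁆)
    (isPGroup_zpowers (p := 2) (k := 1) (by rw [pow_one, pow_two, h.fl'.z_sq ha])) (h.fl.two.to_le der_le)
    (zpowers_le.2 (mem_N_der haN)) fun e' => h1 (by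
      rwa [e, ← cj_commutator, e', cj_bot, mem_bot] at ha)
  obtain ⟨⟨b, hb⟩, hb1⟩ := ne_bot_iff_exists_ne_one.1 h2
  exact ⟨b, hb.1, fun e => hb1 (Subtype.ext e), h.fl'.mem_N_of_commute ha h1 (h.fl.le (der_le hb.1))
    (mem_cent_zpowers.1 hb.2)⟩

end Pair

section common

/-- generators of the subgroup normalised by two lines with a common point -/
def gen1 (E E' : Subgroup Γ) : Set Γ :=
  {g | (g ∈ E ∧ g ∈ E') ∨ (g ∈ ⁅E', E'⁆ ∧ g ∈ normalizer (E : Set Γ)) ∨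
    (g ∈ ⁅E, E⁆ ∧ g ∈ normalizer (E' : Set Γ))}

theorem gen1_symm (E E' : Subgroup Γ) : gen1 E E' = gen1 E' E := by
  ext g; simp only [gen1, Set.mem_ofPred_eq]; tauto

variable (h : Pair r G β E β E')
include h

theorem Pair.common_dec {a y : Γ} (ha : a ∈ ⁅E', E'⁆) (h1 : a ≠ 1) (haN : a ∈ normalizer (E : Set Γ))
    (hy : y ∈ E) : ∃ x, x ∈ E ∧ x ∈ E' ∧ ∃ z ∈ ⁅E, E⁆, ⁅y, a⁆ = x * z := by
  have haG := h.fl'.le (der_le ha)
  have hn := h.fl.norm_ct haG haN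
  obtain ⟨s, hs, c, hc, hb, e⟩ := h.fl.dec (ct_le.trans h.fl.le) hn
    (h.fl.cm_mem_ct haN (h.fl'.z_sq ha ▸ h.fl.le_ct_one) hy)
  have hle := (cmz_le hn).trans ct_le
  refine ⟨s, hle hs, ?_, c, (h.fl.der c).2 ⟨hc.1, hb⟩, e⟩
  rw [← h.fl.cmz_cmz (ct_le.trans h.fl.le) hn] at hs
  exact h.fl'.cmz_le_E (hle.trans h.fl.le) (fun x hx => h.fl'.mem_N_of_commute ha h1 (h.fl.le (hle hx))
    (h.fl.cmz_ct_comm (h.fl'.z_beta ha) hx).symm) hs

theorem Pair.common_norm {a : Γ} (ha : a ∈ ⁅E', E'⁆) (h1 : a ≠ 1) (haN : a ∈ normalizer (E : Set Γ)) :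
    ∀ y ∈ E, ∀ g ∈ gen1 E E', ⁅y, g⁆ ∈ closure (gen1 E E') := by
  rintro y hy g (⟨hg, hg'⟩ | ⟨hg, hg'⟩ | ⟨hg, -⟩)
  · have hz := commutator_mem_commutator hy hg
    refine subset_closure (Or.inr (Or.inr ⟨hz, h.fl'.mem_N_of_commute ha h1 (h.fl.le (der_le hz)) ?_⟩))
    obtain ⟨x, hx, hx', z, hz', e⟩ := h.common_dec ha h1 haN hy
    refine (commute_of_conj_eq ?_).symm
    have h2 : Commute (x * z) g := Commute.mul_left (commutatorElement_eq_one_iff_commute.1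
      (h.z_inter (commutator_mem_commutator hx hg) (commutator_mem_commutator hx' hg')))
      (h.fl.z_comm hz' hg)
    rw [conjugate_commutatorElement, conj_eq_of_commute (h.fl'.z_comm ha hg'), conj_eq_cm_mul,
      ← commutatorElement_inv y a, e, h.fl.cm_left (E.inv_mem (E.mul_mem hx (der_le hz'))) hz,
      commutatorElement_eq_one_iff_commute.2 h2.inv_left, mul_one]
  · by_cases hg1 : g = 1
    · simp [hg1]
    obtain ⟨x, hx, hx', z, hz, e⟩ := h.common_dec hg hg1 hg' hy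
    rw [e]
    refine mul_mem (subset_closure (Or.inl ⟨hx, hx'⟩)) (subset_closure (Or.inr (Or.inr
      ⟨hz, h.fl'.mem_N_of_commute hg hg1 (h.fl.le (der_le hz)) ?_⟩)))
    have h2 : g * ⁅y, g⁆ * g⁻¹ = ⁅y, g⁆⁻¹ := by
      have := h.fl'.z_inv hg
      simp only [commutatorElement_def, mul_inv_rev, inv_inv, this, mul_assoc, h.fl'.z_sq hg, mul_one]
    have h3 : x⁻¹ = x := inv_eq_of_mul_eq_one_left (h.z_inter (h.fl.sq_mem hx) (h.fl'.sq_mem hx'))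
    rw [e, ← conj_mul, conj_eq_of_commute (h.fl'.z_comm hg hx'), mul_inv_rev, h3, h.fl.z_inv hz,
      (h.fl.z_comm hz hx).eq, mul_right_inj] at h2
    exact (commute_of_conj_eq h2).symm
  · rw [commutatorElement_eq_one_iff_commute.2 (h.fl.z_comm hg hy).symm]
    exact one_mem _

theorem Pair.common_false {a : Γ} (ha : a ∈ ⁅E', E'⁆) (h1 : a ≠ 1) (haN : a ∈ normalizer (E : Set Γ)) :
    False := by
  obtain ⟨b, hb, hb1, hbN⟩ := h.exists_back ha h1 haN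
  refine h.ne (h.fl.eq_of_le_N h.fl' (h.fl.star_closure (s := gen1 E E') (Or.inr (Or.inl ⟨ha, haN⟩)) h1
    ?_ ?_ (h.common_norm ha h1 haN) h.fl'.le (gen1_symm E E' ▸ h.symm.common_norm hb hb1 hbN))).symm
  · rintro g (⟨hg, -⟩ | ⟨hg, hg'⟩ | ⟨hg, -⟩)
    · exact ⟨h.fl.le hg, le_normalizer hg⟩
    · exact ⟨h.fl'.le (der_le hg), hg'⟩
    · exact ⟨h.fl.le (der_le hg), le_normalizer (der_le hg)⟩
  · rintro g (⟨hg, hg'⟩ | ⟨hg, -⟩ | ⟨hg, -⟩)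
    · exact subset_closure (Or.inl ⟨cm_mem_right h.fl.norm hg, cm_mem_right h.fl'.norm hg'⟩)
    · rw [commutatorElement_eq_one_iff_commute.2 (h.fl'.z_beta hg).symm]; exact one_mem _
    · rw [commutatorElement_eq_one_iff_commute.2 (h.fl.z_beta hg).symm]; exact one_mem _

end common

namespace Flag

variable (h : Flag r G β E)
include h

theorem inv_flat {a : Γ} (ha : a ∈ G) (hn : a ∈ normalizer (E : Set Γ)) (h2 : a * a = 1)
    (hf : ¬ Commute a β) (H : ∀ y ∈ E, Commute y a → y * y = 1) :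
    ∃ x ∈ E, ∃ k ∈ normalizer (E : Set Γ), Commute k β ∧ a = x * k ∧ ∃ A, Flat β A ∧ A ≤ E ∧
      (∀ y ∈ A, Commute y a) ∧ ∃ y ∈ A, ab E y = ab E x := by
  obtain ⟨x, k, P, hP, hPn, hx, hkP, -, hk, hb, rfl⟩ := h.dec_inv ha hn h2
  obtain ⟨A, hA, hAP, hc, H'⟩ := h.exists_flat hP hPn hx (fun e => hf ((h.z_beta e).mul_left hb))
    fun y hy hc => H y (hP hy) (hc.mul_right (hkP y hy).symm)
  exact ⟨x, hP hx, k, hk, hb, rfl, A, hA, hAP.trans hP,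
    fun y hy => (hc y hy).mul_right (hkP y (hAP hy)).symm, H'⟩

theorem comm_of_sq {a : Γ} (H : ∀ y ∈ E, Commute y a → y * y = 1) {x y : Γ} (hx : x ∈ E) (hy : y ∈ E)
    (hxa : Commute x a) (hya : Commute y a) : Commute x y := by
  have h1 := H _ (E.mul_mem hx hy) (hxa.mul_left hya)
  have h2 := inv_eq_of_mul_eq_one_left (H x hx hxa)
  have h3 := inv_eq_of_mul_eq_one_left (H y hy hya)
  have h4 := inv_eq_of_mul_eq_one_left h1
  rw [mul_inv_rev, h2, h3] at h4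
  exact h4.symm

theorem triv_of_sq {a : Γ} (ha : a ∈ G) (hn : a ∈ normalizer (E : Set Γ)) (h2 : a * a = 1)
    (hf : ∀ u ∈ E, ¬ Commute a (u * β * u⁻¹)) (H : ∀ y ∈ E, Commute y a → y * y = 1) : E ≤ ct E a := by
  intro u hu
  by_contra hne
  obtain ⟨x, hx, k, hk, hb, rfl, A, hA, hAE, hAa, y, hy, e⟩ :=
    h.inv_flat ha hn h2 (by simpa using hf 1 E.one_mem) H
  obtain ⟨x', hx', k', hk', hb', e', A', -, hAE', hAa', y', hy', f⟩ := h.inv_flat (a := u * (x * k) * u⁻¹)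
    (conj_mem_N (le_normalizer (h.le hu)) ha) (conj_mem_N (mem_N_N (le_normalizer hu)) hn)
    (by rw [conj_mul, h2]; simp) (fun c => hf u⁻¹ (E.inv_mem hu) (by simpa using commute_conj_left.1 c))
    fun y hy c => by
      have := H _ (conj_mem_N' (le_normalizer hu) hy) (commute_conj_left.1 c.symm).symm
      calc y * y = u * (u⁻¹ * y * u * (u⁻¹ * y * u)) * u⁻¹ := by group
        _ = 1 := by rw [this]; simp
  have hw := cm_mem_left hn hu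
  have h3 : x'⁻¹ * (⁅u, x * k⁆ * x) ∈ ⁅E, E⁆ := (h.der _).2 ⟨E.mul_mem (E.inv_mem hx') (E.mul_mem hw hx), by
    have : x'⁻¹ * (⁅u, x * k⁆ * x) = k' * k⁻¹ := by
      rw [inv_mul_eq_iff_eq_mul, ← mul_assoc, ← e', conj_eq_cm_mul]; group
    rw [this]; exact hb'.mul_left hb.inv_left⟩
  rw [← ab_eq_iff hx' (E.mul_mem hw hx), ab_mul hw hx] at h3
  have hy'' := conj_mem_N' (le_normalizer hu) (hAE' hy')
  obtain ⟨y₁, hy₁, f₁⟩ := h.inAZ_of_comm hA hAE hy'' fun b hb =>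
    h.comm_of_sq H hy'' (hAE hb) (commute_conj_left.1 (hAa' y' hy').symm).symm (hAa b hb)
  have f₂ : ab E (u⁻¹ * y' * u) = ab E y' := by simpa using ab_conj (E.inv_mem hu) (hAE' hy')
  have h4 : ab E ⁅u, x * k⁆ = ab E (y₁ * y⁻¹) := by
    rw [ab_mul (hAE hy₁) (E.inv_mem (hAE hy)), ab_inv (hAE hy), f₁, f₂, f, h3, e, mul_inv_cancel_right]
  have h5 := A.mul_mem hy₁ (A.inv_mem hy)
  have h6 := h.flat_le hA (hAE.trans h.le) (h.norm_wt ha hn le_rfl h.norm) h5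
    (mem_wt.2 ⟨hAE h5, u, hu, h4.symm⟩) fun e => hne ⟨hu, by
      rw [← ab_eq_one hw, h4, e, ab_eq_one E.one_mem]; exact one_mem _⟩
  obtain ⟨-, v, hv, e''⟩ := h6 hy
  obtain ⟨v', hv', H'⟩ := h.fix_of_ab hx hk hb hv (e.symm.trans e'')
  exact hf v' hv' H'

theorem triv_of_tv {t a : Γ} (ht : TV G E t) (ha : a ∈ G) (hn : a ∈ normalizer (E : Set Γ))
    (h2 : a * a = 1) (hf : ∀ u ∈ E, ¬ Commute a (u * β * u⁻¹)) : E ≤ ct E a := by
  by_contra hne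
  have hs : E ≤ ct E (a * a) := h2 ▸ h.le_ct_one
  obtain ⟨u, hu, hu'⟩ := SetLike.not_le_iff_exists.1 hne
  have h3 : ct E a ≤ wt hn le_rfl := by
    by_contra h4
    exact hne (h.tv_len ht (der_le_wt hn le_rfl) (h.wt_le_ct hn hs le_rfl) ct_le
      (h.norm_wt ha hn le_rfl h.norm) (h.norm_ct ha hn) (fun e => hu' ⟨hu, e (cm_mem_wt hn le_rfl hu)⟩) h4)
  obtain ⟨x, k, P, hP, -, hx, hkP, -, hk, hb, rfl⟩ := h.dec_inv ha hn h2
  obtain ⟨-, v, hv, e⟩ := h3 (h.mem_ct_of_comm (hP hx) hk (hkP x hx))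
  obtain ⟨v', hv', H'⟩ := h.fix_of_ab (hP hx) hk hb hv e
  exact hf v' hv' H'

end Flag

/-- Two lines joined by edges, without common point. -/
structure Far (r : ℕ) (G : Subgroup Γ) (β : Γ) (E : Subgroup Γ) (β' : Γ) (E' : Subgroup Γ) : Prop
    extends Pair r G β E β' E' where
  nf : ∀ a ∈ ⁅E', E'⁆, a ≠ 1 → ∀ u ∈ E, ¬ Commute a (u * β * u⁻¹)
  nf' : ∀ a ∈ ⁅E, E⁆, a ≠ 1 → ∀ u ∈ E', ¬ Commute a (u * β' * u⁻¹)
  ex : ∃ a ∈ ⁅E', E'⁆, a ≠ 1 ∧ a ∈ normalizer (E : Set Γ)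
  ex' : ∃ a ∈ ⁅E, E⁆, a ≠ 1 ∧ a ∈ normalizer (E' : Set Γ)

/-- `Z'` induces on `E⟨β⟩` automorphisms coming from the flat subgroup `A`. -/
def Phi (β : Γ) (E E' A : Subgroup Γ) : Prop :=
  Flat β A ∧ A ≤ E ∧ ∀ a ∈ ⁅E', E'⁆, ∃ x ∈ A, ∃ k, Commute k β ∧ (∀ y ∈ E, Commute k y) ∧ a = x * k

namespace Far

variable (h : Far r G β E β' E')
include h

theorem symm : Far r G β' E' β E := ⟨h.toPair.symm, h.nf', h.nf, h.ex', h.ex⟩

theorem zG {a : Γ} (ha : a ∈ ⁅E', E'⁆) : a ∈ G := h.fl'.le (der_le ha)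

theorem nfb {a : Γ} (ha : a ∈ ⁅E', E'⁆) (h1 : a ≠ 1) : ¬ Commute a β := by simpa using h.nf a ha h1 1 E.one_mem

theorem z_ne : ⁅E, E⁆ ≠ ⊥ := fun e => by
  obtain ⟨a, ha, h1, -⟩ := h.ex'
  exact h1 (mem_bot.1 (e ▸ ha))

theorem f1 {y a : Γ} (hy : y ∈ E) (hyN : y ∈ normalizer (E' : Set Γ)) (ha : a ∈ ⁅E', E'⁆)
    (haN : a ∈ normalizer (E : Set Γ)) : Commute y a := by
  by_contra hne
  have hw : ⁅y, a⁆ ≠ 1 := mt commutatorElement_eq_one_iff_commute.1 hne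
  have hw' := cm_mem_right (mem_N_der hyN) ha
  have h1 : a ≠ 1 := by rintro rfl; exact hne (Commute.one_right y)
  refine hw (h.z_inter (h.fl.triv_of_nofix (h.zG ha) haN (h.fl'.z_sq ha) (fun z hz => ?_)
    (h.nf a ha h1) hy).2 hw')
  exact (h.comm_zz ha haN hz (h.fl'.mem_N_of_commute hw' hw (h.symm.zG hz)
    (h.fl.z_comm hz (cm_mem_left haN hy)))).symm

theorem f2 {y : Γ} (hy : y ∈ E) (hyN : y ∈ normalizer (E' : Set Γ)) (h1 : y * y ≠ 1) : TV G E' y := by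
  have hb := h.fl.sq_mem hy
  have K : ∀ c ∈ ⁅E', E'⁆, ⁅y * y, c⁆ = 1 → ⁅y, c⁆ = 1 := fun c hc e =>
    commutatorElement_eq_one_iff_commute.2 (h.f1 hy hyN hc
      (h.fl.mem_N_of_commute hb h1 (h.zG hc) (commutatorElement_eq_one_iff_commute.1 e).symm))
  have L : ∀ {t c : Γ}, t ∈ normalizer (E' : Set Γ) → c ∈ ⁅E', E'⁆ → ⁅t, ⁅t, c⁆⁆ = ⁅t * t, c⁆ :=
    fun ht hc => cm_cm_of_inv (h.fl'.z_inv (cm_mem_right (mem_N_der ht) hc))
  have hc : ∀ c ∈ ⁅E', E'⁆, Commute y c := fun c hc => by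
    have hc1 := cm_mem_right (mem_N_der hyN) hc
    have hc2 := cm_mem_right (mem_N_der hyN) hc1
    have h2 : ⁅y * y, ⁅y, ⁅y, c⁆⁆⁆ = 1 := by
      rw [L hyN hc, L (mul_mem hyN hyN) hc, h.fl.z_sq hb, commutatorElement_one_left]
    have h3 := K _ hc2 h2
    rw [L hyN hc1] at h3
    have h4 := K _ hc1 h3
    rw [L hyN hc] at h4
    exact commutatorElement_eq_one_iff_commute.1 (K _ hc h4)
  refine ⟨h.fl.le hy, hyN, hc, h.fl'.triv_of_nofix (h.symm.zG hb) (mul_mem hyN hyN) (h.fl.z_sq hb)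
    (fun z hz => (hc z hz).mul_left (hc z hz)) (h.nf' _ hb h1), fun e => h.symm.nfb hb h1 ?_⟩
  obtain ⟨x, hx, k, -, hk, hkE, e⟩ := h.fl'.dec_triv (h.fl.le hy) hyN e
  rw [e, (hkE x hx).mul_mul_mul_comm]
  exact (h.fl'.sq x hx).mul_left (hk.mul_left hk)

theorem f4 {a : Γ} (ha : a ∈ ⁅E', E'⁆) (haN : a ∈ normalizer (E : Set Γ)) : E ≤ ct E a := by
  by_cases h1 : a = 1
  · exact h1 ▸ h.fl.le_ct_one
  by_cases H : ∀ y ∈ E, Commute y a → y * y = 1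
  · exact h.fl.triv_of_sq (h.zG ha) haN (h.fl'.z_sq ha) (h.nf a ha h1) H
  push Not at H
  obtain ⟨y, hy, hc, h2⟩ := H
  obtain ⟨g, hg, e⟩ := h.symm.conj
  have ht := (h.f2 hy (h.fl'.mem_N_of_commute ha h1 (h.fl.le hy) hc) h2).conj hg
  rw [← e] at ht
  exact h.fl.triv_of_tv ht (h.zG ha) haN (h.fl'.z_sq ha) (h.nf a ha h1)

theorem zN {b : Γ} (hb : b ∈ ⁅E, E⁆) : b ∈ normalizer (E' : Set Γ) := by
  obtain ⟨a, ha, h1, haN⟩ := h.ex
  obtain ⟨x, hx, k, -, -, hkE, e⟩ := h.fl.dec_triv (h.zG ha) haN (h.f4 ha haN)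
  refine h.fl'.mem_N_of_commute ha h1 (h.symm.zG hb) ?_
  rw [e]; exact (h.fl.z_comm hb hx).mul_right (hkE b (der_le hb)).symm

theorem cmZ {a y : Γ} (ha : a ∈ ⁅E', E'⁆) (hy : y ∈ E) : ⁅y, a⁆ ∈ ⁅E, E⁆ := (h.f4 ha (h.symm.zN ha) hy).2

theorem dec {a : Γ} (ha : a ∈ ⁅E', E'⁆) :
    ∃ x ∈ E, ∃ k, Commute k β ∧ (∀ y ∈ E, Commute k y) ∧ a = x * k := by
  obtain ⟨x, hx, k, -, H⟩ := h.fl.dec_triv (h.zG ha) (h.symm.zN ha) (h.f4 ha (h.symm.zN ha))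
  exact ⟨x, hx, k, H⟩

theorem phi_of {A : Subgroup Γ} (hA : Flat β A) (hAE : A ≤ E)
    (H : ∀ x ∈ E, ∀ k, (∀ y ∈ E, Commute k y) → x * k ∈ ⁅E', E'⁆ → ∃ y ∈ A, ab E y = ab E x) :
    Phi β E E' A := by
  refine ⟨hA, hAE, fun a ha => ?_⟩
  obtain ⟨x, hx, k, hb, hk, rfl⟩ := h.dec ha
  obtain ⟨y, hy, e⟩ := H x hx k hk ha
  have hz := (ab_eq_iff (hAE hy) hx).1 e
  exact ⟨y, hy, y⁻¹ * x * k, (h.fl.z_beta hz).mul_left hb,
    fun w hw => (h.fl.z_comm hz hw).mul_left (hk w hw), by group⟩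

theorem f5 {t : Γ} (ht : TV G E t) (htE : t ∈ E') : ∃ A, Phi β E E' A := by
  obtain ⟨A, hA, hAW, H⟩ := h.fl.tv_struct ht
  exact ⟨A, h.phi_of hA (fun _ ha => (hAW ha).1) fun x hx k hk ha =>
    H x (h.fl.mem_ct_of_commute h.z_ne ht.norm hx hk (h.fl'.z_comm ha htE).symm)⟩

theorem exists_phi : (∃ A, Phi β E E' A) ∨ ∃ A, Phi β' E' E A := by
  by_cases H : ∀ y ∈ E, y ∈ normalizer (E' : Set Γ) → y * y = 1
  · obtain ⟨a, ha, h1, haN⟩ := h.ex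
    have H' : ∀ y ∈ E, Commute y a → y * y = 1 := fun y hy hc =>
      H y hy (h.fl'.mem_N_of_commute ha h1 (h.fl.le hy) hc)
    obtain ⟨-, -, -, -, -, -, A, hA, hAE, hAa, -⟩ :=
      h.fl.inv_flat (h.zG ha) haN (h.fl'.z_sq ha) (h.nfb ha h1) H'
    refine Or.inl ⟨A, h.phi_of hA hAE fun x hx k hk hxk => ?_⟩
    by_cases h2 : x * k = 1
    · refine ⟨1, A.one_mem, ((ab_eq_one hx).2 (h.fl.mem_der_of_central h.z_ne hx fun y hy => ?_)).symm ▸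
        (ab_eq_one E.one_mem).2 (one_mem _)⟩
      rw [eq_inv_of_mul_eq_one_left h2]; exact (hk y hy).inv_left
    exact h.fl.inAZ_of_comm hA hAE hx fun b hb => h.fl.comm_of_sq H' hx (hAE hb) (h.f1 hx
      (h.fl'.mem_N_of_commute hxk h2 (h.fl.le hx) ((Commute.refl x).mul_right (hk x hx).symm)) ha haN)
      (hAa b hb)
  · push Not at H
    obtain ⟨y, hy, hyN, h2⟩ := H
    exact Or.inr (h.symm.f5 (h.f2 hy hyN h2) hy)

theorem notle : ¬ E' ≤ normalizer (E : Set Γ) := fun hle => by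
  obtain ⟨b, hb, h1, -⟩ := h.ex'
  obtain ⟨x, hx, k, hk, hkE, e⟩ := h.symm.dec hb
  refine h.symm.nfb hb h1 (e ▸ (h.fl'.z_beta (h.fl'.mem_der_of_central h.symm.z_ne hx fun y hy => ?_)).mul_left hk)
  have h2 : Commute y b := commutatorElement_eq_one_iff_commute.1
    (h.z_inter (cm_mem_right (mem_N_der (hle hy)) hb) (h.symm.cmZ hb hy))
  rw [eq_mul_inv_of_mul_eq e.symm]
  exact h2.symm.mul_left (hkE y hy).inv_left

variable {A A' : Subgroup Γ}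

theorem phi_comm (hA : Phi β E E' A) {t a : Γ} (ht : t ∈ A) (ha : a ∈ ⁅E', E'⁆) : Commute t a := by
  obtain ⟨x, hx, k, -, hk, rfl⟩ := hA.2.2 a ha
  exact (hA.1.comm t ht x hx).mul_right (hk t (hA.2.1 ht)).symm

theorem phi_N (hA : Phi β E E' A) {t : Γ} (ht : t ∈ A) : t ∈ normalizer (E' : Set Γ) := by
  obtain ⟨a, ha, h1, -⟩ := h.ex
  exact h.fl'.mem_N_of_commute ha h1 (h.fl.le (hA.2.1 ht)) (h.phi_comm hA ht ha)

theorem phi_tv (hA : Phi β E E' A) {t : Γ} (ht : t ∈ A) (hn : ¬ E' ≤ ct E' t) : TV G E' t :=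
  ⟨h.fl.le (hA.2.1 ht), h.phi_N hA ht, fun _ hz => h.phi_comm hA ht hz,
    h.fl.flat_sq hA.1 hA.2.1 ht ▸ h.fl'.le_ct_one, hn⟩

theorem phi_beta (hA : Phi β E E' A) {a : Γ} (ha : a ∈ ⁅E', E'⁆) : ⁅β, a⁆ ∈ A := by
  obtain ⟨x, hx, k, hk, -, rfl⟩ := hA.2.2 a ha
  rw [h.fl.cm_beta hk (hA.2.1 hx) (hA.2.1 hx) rfl]
  exact cm_mem_right hA.1.norm hx

theorem f6 (hA : Phi β E E' A) : ∃ t ∈ A, ¬ E' ≤ ct E' t := by
  by_contra H
  push Not at H
  obtain ⟨a, ha, h1, -⟩ := h.ex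
  refine h.notle (h.fl.star_closure (s := {g | g ∈ A ∨ g ∈ ⁅E, E⁆ ∨ g ∈ ⁅E', E'⁆}) (Or.inr (Or.inr ha)) h1
    ?_ ?_ ?_ h.fl'.le ?_)
  · rintro g (hg | hg | hg)
    · exact ⟨h.fl.le (hA.2.1 hg), le_normalizer (hA.2.1 hg)⟩
    · exact ⟨h.symm.zG hg, le_normalizer (der_le hg)⟩
    · exact ⟨h.zG hg, h.symm.zN hg⟩
  · rintro g (hg | hg | hg)
    · exact subset_closure (Or.inl (cm_mem_right hA.1.norm hg))
    · rw [commutatorElement_eq_one_iff_commute.2 (h.fl.z_beta hg).symm]; exact one_mem _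
    · exact subset_closure (Or.inl (h.phi_beta hA hg))
  · rintro y hy g (hg | hg | hg)
    · exact subset_closure (Or.inr (Or.inl (commutator_mem_commutator hy (hA.2.1 hg))))
    · exact subset_closure (Or.inr (Or.inl (commutator_mem_commutator hy (der_le hg))))
    · exact subset_closure (Or.inr (Or.inl (h.cmZ hg hy)))
  · rintro y hy g (hg | hg | hg)
    · exact subset_closure (Or.inr (Or.inr (H g hg hy).2))
    · exact subset_closure (Or.inr (Or.inr (h.symm.cmZ hg hy)))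
    · exact subset_closure (Or.inr (Or.inr (commutator_mem_commutator hy (der_le hg))))

theorem f7 (hA : Phi β E E' A) {t : Γ} (ht : TV G E t) (htE : t ∈ E') {w : Γ} (hw : w ∈ ct E t) :
    ∃ y ∈ A, ∃ z ∈ ⁅E, E⁆, w = y * z := by
  obtain ⟨a, ha, h1, -⟩ := h.ex
  obtain ⟨x, hx, k, hk, hkE, e⟩ := hA.2.2 a ha
  have h2 := h.fl.tv_ct_le ht (P := A ⊔ ⁅E, E⁆) le_sup_right (mem_N_sup hA.1.norm (mem_N_der h.fl.norm))
    (h.fl.mem_ct_of_commute h.z_ne ht.norm (hA.2.1 hx) hkE (e ▸ (h.fl'.z_comm ha htE).symm))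
    (mem_sup_left hx) (fun hz => h.nfb ha h1 (e ▸ (h.fl.z_beta hz).mul_left hk)) hw
  obtain ⟨y, hy, z, hz, e⟩ := (mem_sup_of_normalizes_right
    (fun y hy => mem_N_der (le_normalizer (hA.2.1 hy)))).1 h2
  exact ⟨y, hy, z, hz, e.symm⟩

/-- generators of the subgroup normalised by two lines without common point -/
def gen2 (E E' A A' : Subgroup Γ) : Set Γ := {g | (g ∈ A ∨ g ∈ ⁅E, E⁆) ∨ (g ∈ A' ∨ g ∈ ⁅E', E'⁆)}

omit h in
theorem gen2_symm : gen2 E E' A A' = gen2 E' E A' A := by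
  ext g; simp only [gen2, Set.mem_ofPred_eq]; tauto

theorem f8 (hA : Phi β E E' A) (hA' : Phi β' E' E A') :
    ∀ y ∈ E, ∀ g ∈ gen2 E E' A A', ⁅y, g⁆ ∈ closure (gen2 E E' A A') := by
  rintro y hy g ((hg | hg) | hg | hg)
  · exact subset_closure (Or.inl (Or.inr (commutator_mem_commutator hy (hA.2.1 hg))))
  · exact subset_closure (Or.inl (Or.inr (commutator_mem_commutator hy (der_le hg))))
  · by_cases hn : E ≤ ct E g
    · exact subset_closure (Or.inl (Or.inr (hn hy).2))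
    have ht := h.symm.phi_tv hA' hg hn
    obtain ⟨x, hx, z, hz, e⟩ := h.f7 hA ht (hA'.2.1 hg) (h.fl.cm_mem_ct ht.norm ht.sq hy)
    rw [e]
    exact mul_mem (subset_closure (Or.inl (Or.inl hx))) (subset_closure (Or.inl (Or.inr hz)))
  · exact subset_closure (Or.inl (Or.inr (h.cmZ hg hy)))

theorem false_of_phi (hA : Phi β E E' A) : False := by
  obtain ⟨t, ht, hn⟩ := h.f6 hA
  obtain ⟨A', hA'⟩ := h.symm.f5 (h.phi_tv hA ht hn) (hA.2.1 ht)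
  obtain ⟨t', ht', hn'⟩ := h.symm.f6 hA'
  obtain ⟨a, ha, h1, -⟩ := h.ex
  have key : ∀ g ∈ A', ¬ E ≤ ct E g → ⁅β, g⁆ ∈ closure (gen2 E E' A A') := fun g hg hn => by
    have htv := h.symm.phi_tv hA' hg hn
    obtain ⟨x, k, P, hP, -, hx, hkP, -, hk, hb, e⟩ :=
      h.fl.dec_inv htv.mem htv.norm (h.fl'.flat_sq hA'.1 hA'.2.1 hg)
    obtain ⟨y, hy, z, hz, e'⟩ := h.f7 hA htv (hA'.2.1 hg) (e ▸ h.fl.mem_ct_of_comm (hP hx) hk (hkP x hx))
    rw [e, h.fl.cm_beta hb (hP hx) (hA.2.1 hy) ((ab_eq_iff (hA.2.1 hy) (hP hx)).2 (by simpa [e'] using hz))]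
    exact subset_closure (Or.inl (Or.inl (cm_mem_right hA.1.norm hy)))
  refine h.notle (h.fl.star_closure (s := gen2 E E' A A') (Or.inr (Or.inr ha)) h1 ?_ ?_ (h.f8 hA hA')
    h.fl'.le (gen2_symm (E := E) ▸ h.symm.f8 hA' hA))
  · rintro g ((hg | hg) | hg | hg)
    · exact ⟨h.fl.le (hA.2.1 hg), le_normalizer (hA.2.1 hg)⟩
    · exact ⟨h.symm.zG hg, le_normalizer (der_le hg)⟩
    · exact ⟨h.fl'.le (hA'.2.1 hg), h.symm.phi_N hA' hg⟩
    · exact ⟨h.zG hg, h.symm.zN hg⟩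
  · rintro g ((hg | hg) | hg | hg)
    · exact subset_closure (Or.inl (Or.inl (cm_mem_right hA.1.norm hg)))
    · rw [commutatorElement_eq_one_iff_commute.2 (h.fl.z_beta hg).symm]; exact one_mem _
    · by_cases hn : E ≤ ct E g
      · have h2 := A'.mul_mem (A'.inv_mem ht') hg
        have h3 : t' ∈ closure (gen2 E E' A A') := subset_closure (Or.inr (Or.inl ht'))
        rw [← mul_inv_cancel_left t' g, cm_mul_right]
        refine mul_mem (key t' ht' hn') (mul_mem (mul_mem h3 (key _ h2 fun e => hn' fun y hy =>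
          ⟨hy, ?_⟩)) (inv_mem h3))
        have h4 : t' = g * (t'⁻¹ * g)⁻¹ := by rw [mul_inv_rev, inv_inv, mul_inv_cancel_left]
        have h5 : (t'⁻¹ * g)⁻¹ = t'⁻¹ * g :=
          inv_eq_of_mul_eq_one_left (h.fl'.flat_sq hA'.1 hA'.2.1 h2)
        rw [h4, h5, cm_mul_right]
        exact mul_mem (hn hy).2 (conj_mem_N (mem_N_der (h.symm.phi_N hA' hg)) (e hy).2)
      · exact key g hg hn
    · exact subset_closure (Or.inl (Or.inl (h.phi_beta hA hg)))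

theorem false : False := h.exists_phi.elim (fun ⟨_, hA⟩ => h.false_of_phi hA) fun ⟨_, hA⟩ =>
  h.symm.false_of_phi hA

end Far

theorem Pair.nofix (h : Pair r G β E β' E') {a : Γ} (ha : a ∈ ⁅E', E'⁆) (h1 : a ≠ 1)
    (haN : a ∈ normalizer (E : Set Γ)) {b : Γ} (hb : b ∈ ⁅E', E'⁆) (hb1 : b ≠ 1) {u : Γ} (hu : u ∈ E) :
    ¬ Commute b (u * β * u⁻¹) := fun hc => by
  have hf := h.fl.conj_E hu
  have hG : u * β * u⁻¹ * β'⁻¹ ∈ G := by
    have := G.mul_mem (cm_mem_left h.fl.normG (h.fl.le hu)) h.symm.hb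
    simpa [commutatorElement_def, mul_assoc] using this
  exact Pair.common_false ⟨hf, h.fl'.of_point hf.pow hG (h.fl'.point_mem_N hb hb1 hG hc), by simp,
    h.conj, h.ne⟩ ha h1 haN

/-- **No edges**: no nontrivial element of the centre of a line normalises another line. -/
theorem Pair.no_edge (h : Pair r G β E β' E') {a : Γ} (ha : a ∈ ⁅E', E'⁆)
    (haN : a ∈ normalizer (E : Set Γ)) : a = 1 := by
  by_contra h1
  obtain ⟨b, hb, hb1, hbN⟩ := h.exists_back ha h1 haN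
  exact Far.false ⟨h, fun _ hc hc1 _ hu => h.nofix ha h1 haN hc hc1 hu,
    fun _ hc hc1 _ hu => h.symm.nofix hb hb1 hbN hc hc1 hu, ⟨a, ha, h1, haN⟩, ⟨b, hb, hb1, hbN⟩⟩

end CL.Fpf
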