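import Cfsg.Agent.PLOC.ThompsonNPC

/-! The characteristic subgroup `W(S)` (Kurzweil–Stellmacher 9.4). -/

set_option autoImplicit false

namespace CL.FC

open Subgroup CL.MSS Cfsg CL.PC
open scoped commutatorElement

universe u

section
variable {S : Type u} [Group S] {p : ℕ}

theorem omegaOne_center_le_snc : omegaOne p (center S) ≤ stableNormalClosure p S :=
  le_sInf fun _ h => h.1

theorem snc_le {W : Subgroup S} (h1 : omegaOne p (center S) ≤ W)
    (h2 : ∀ (H : Type u) [Group H] (τ : S →* H), IsStableEmbedding p τ → (W.map τ).Normal) :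
    stableNormalClosure p S ≤ W :=
  sInf_le ⟨h1, h2⟩

theorem omegaOne_center_le_omegaCenterThompson [Finite S] :
    omegaOne p (center S) ≤ omegaCenterThompson p S := by
  have := CL.Th.omegaOne_center_le_omegaOne_centerThompsonOf (p := p) (⊤ : Subgroup S)
  rw [coe_top, centralizer_univ, top_inf_eq, centerThompsonOf,
    CL.Th.thompsonSubgroupOf_top] at this
  exact this

theorem omegaCenterThompson_map_normal {H : Type u} [Group H] {τ : S →* H}
    (h : IsStableEmbedding p τ) : ((omegaCenterThompson p S).map τ).Normal := by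
  rw [CL.Th.map_omegaCenterThompson h.1]
  have h1 := h.2.2.2.2.1
  rw [CL.Th.map_thompsonSubgroup h.1] at h1
  have : (centerThompsonOf p τ.range).Normal := by
    unfold centerThompsonOf; infer_instance
  exact CL.Th.omegaOne_normal _

theorem snc_le_omegaCenterThompson [Finite S] :
    stableNormalClosure p S ≤ omegaCenterThompson p S :=
  snc_le omegaOne_center_le_omegaCenterThompson fun _ _ _ h => omegaCenterThompson_map_normal h

theorem snc_map_normal {H : Type u} [Group H] {τ : S →* H} (h : IsStableEmbedding p τ) :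
    ((stableNormalClosure p S).map τ).Normal := by
  have := h.2.1
  have : Finite S := Finite.of_injective τ h.1
  refine ⟨?_⟩
  rintro _ ⟨w, hw, rfl⟩ g
  obtain ⟨y, -, hy⟩ := (omegaCenterThompson_map_normal h).conj_mem _
    (mem_map_of_mem τ (snc_le_omegaCenterThompson hw)) g
  refine ⟨y, mem_sInf.2 fun W hW => ?_, hy⟩
  obtain ⟨y', h1, h2⟩ := (hW.2 H τ h).conj_mem _ (mem_map_of_mem τ (mem_sInf.1 hw W hW)) g
  exact h.1 (h2.trans hy.symm) ▸ h1

theorem omegaCenterThompson_map_equiv {S' : Type*} [Group S'] (η : S ≃* S') :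
    (omegaCenterThompson p S).map η.toMonoidHom = omegaCenterThompson p S' := by
  rw [CL.Th.map_omegaCenterThompson η.injective, MonoidHom.range_eq_top.2 η.surjective,
    centerThompsonOf, CL.Th.thompsonSubgroupOf_top]
  rfl

theorem isStableEmbedding_comp {S' H : Type u} [Group S'] [Group H] (η : S ≃* S') {τ : S' →* H}
    (h : IsStableEmbedding p τ) : IsStableEmbedding p (τ.comp η.toMonoidHom) := by
  obtain ⟨h1, h2, ⟨P, h3⟩, h4, h5, h6⟩ := h
  refine ⟨h1.comp η.injective, h2, ⟨P, ?_⟩, h4, ?_, fun V _ hV => h6 V ?_⟩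
  · rw [h3, MonoidHom.range_comp, (MonoidHom.range_eq_top (f := η.toMonoidHom)).2 η.surjective,
      MonoidHom.range_eq_map]
  · rwa [← map_map, CL.Th.map_thompsonSubgroup_equiv]
  · rwa [← map_map, omegaCenterThompson_map_equiv] at hV

theorem snc_le_map_equiv {S' : Type u} [Group S'] (η : S ≃* S') :
    stableNormalClosure p S' ≤ (stableNormalClosure p S).map η.toMonoidHom := by
  refine snc_le ?_ fun H _ τ h => ?_
  · refine le_trans ?_ (map_mono omegaOne_center_le_snc)
    rw [CL.Th.map_omegaOne _ η.injective]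
    refine CL.Th.omegaOne_mono fun x hx => ⟨η.symm x, ?_, η.apply_symm_apply x⟩
    refine mem_center_iff.2 fun y => η.injective ?_
    simp only [map_mul, MulEquiv.apply_symm_apply]
    exact mem_center_iff.1 hx _
  · rw [map_map]
    exact snc_map_normal (isStableEmbedding_comp η h)

theorem map_snc_equiv {S' : Type u} [Group S'] (η : S ≃* S') :
    (stableNormalClosure p S).map η.toMonoidHom = stableNormalClosure p S' := by
  refine le_antisymm ?_ (snc_le_map_equiv η)
  refine (map_mono (snc_le_map_equiv η.symm)).trans ?_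
  rw [map_map]
  rintro _ ⟨x, hx, rfl⟩
  simpa using hx

theorem snc_characteristic : (stableNormalClosure p S).Characteristic :=
  characteristic_iff_map_eq.2 fun η => map_snc_equiv η

theorem elemAb_omegaCenterThompson : IsElementaryAbelian p (omegaCenterThompson p S) :=
  CL.Th.elemAb_omegaOne (by
    have := CL.Th.comm_centerThompsonOf (p := p) (⊤ : Subgroup S)
    rwa [centerThompsonOf, CL.Th.thompsonSubgroupOf_top] at this)

theorem snc_ne_bot [Finite S] [hp : Fact p.Prime] (hS : IsPGroup p S) [Nontrivial S] :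
    stableNormalClosure p S ≠ ⊥ := by
  intro h
  have h1 : Nontrivial (center S) := hS.center_nontrivial
  have h2 : IsPGroup p (center S) := hS.to_subgroup _
  obtain ⟨n, hn, hc⟩ := h2.nontrivial_iff_card.1 h1
  obtain ⟨x, hx⟩ := exists_prime_orderOf_dvd_card' p (hc ▸ dvd_pow_self p hn.ne' : p ∣ Nat.card (center S))
  have h3 : (x : S) ∈ omegaOne p (center S) :=
    CL.Th.mem_omegaOne_of x.2 (by rw [← coe_pow, ← hx, pow_orderOf_eq_one, coe_one])
  have h4 : (x : S) = 1 := mem_bot.1 (h ▸ omegaOne_center_le_snc h3)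
  rw [OneMemClass.coe_eq_one] at h4
  rw [h4, orderOf_one] at hx
  exact hp.out.one_lt.ne hx

/-- elements acting quadratically on `W(S)` centralize it -/
theorem snc_quadratic [Finite S] [hp : Fact p.Prime] {x : S}
    (hq : ⁅⁅stableNormalClosure p S, zpowers x⁆, zpowers x⁆ = ⊥) :
    stableNormalClosure p S ≤ centralizer {x} := by
  set W := stableNormalClosure p S with hW
  set X : Set S := {y | ⁅⁅W, zpowers y⁆, zpowers y⁆ = ⊥} with hX
  suffices h : W ≤ W ⊓ centralizer X from
    h.trans (inf_le_right.trans (centralizer_le (Set.singleton_subset_iff.2 hq)))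
  refine snc_le (le_inf omegaOne_center_le_snc ((CL.Th.omegaOne_le _).trans fun z hz =>
    mem_centralizer_iff.2 fun y _ => mem_center_iff.1 hz y)) fun H _ τ h => ?_
  have hn : (W.map τ).Normal := snc_map_normal h
  obtain ⟨h1, h2, ⟨P, h3⟩, h4, h5, h6⟩ := h
  have hst := h6 (W.map τ) (map_mono snc_le_omegaCenterThompson)
  set C := centralizer ((W.map τ : Subgroup H) : Set H) with hC
  set L := (pCore p (H ⧸ C)).comap (QuotientGroup.mk' C) with hL
  have hq1 : ∀ y : S, y ∈ X ↔ ⁅⁅W.map τ, zpowers (τ y)⁆, zpowers (τ y)⁆ = ⊥ := fun y => by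
    rw [← MonoidHom.map_zpowers, commutator_commutator_map, map_eq_bot_iff_of_injective _ h1]
    rfl
  refine ⟨?_⟩
  rintro _ ⟨w, hw, rfl⟩ g
  obtain ⟨w', hw', e⟩ := hn.conj_mem _ (mem_map_of_mem τ hw.1) g
  refine ⟨w', ⟨hw', mem_centralizer_iff.2 fun y hy => h1 ?_⟩, e⟩
  obtain ⟨n, hnL, m, hm, rfl⟩ := (sylIn_inf_normal P L).frattini (x := g)
    (by rw [normalizer_eq_top]; exact mem_top _)
  obtain ⟨s, hs, c, hc, hsc⟩ := CL.Th.exists_mul_of_mem_pCore_quotient C P hnL
  have hsL : s ∈ L := by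
    have : s = n * c⁻¹ := by rw [hsc]; group
    rw [this]
    refine L.mul_mem hnL (L.inv_mem ?_)
    rw [hL, mem_comap, QuotientGroup.mk'_apply, (QuotientGroup.eq_one_iff c).2 hc]
    exact one_mem _
  have hyL : τ y ∈ (P : Subgroup H) ⊓ L := ⟨h3 ▸ ⟨y, rfl⟩, hst _ ((hq1 y).1 hy)⟩
  have hsm : s * m ∈ normalizer (((P : Subgroup H) ⊓ L : Subgroup H) : Set H) :=
    Subgroup.mul_mem _ (le_normalizer ⟨hs, hsL⟩) hm
  have k1 := (conj_mem_of_normalizes' le_rfl hsm hyL).1
  rw [h3] at k1
  obtain ⟨y', hy'⟩ := k1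
  have k2 : y' ∈ X := by
    rw [hq1, hy']
    have := CL.PSt.quadratic_conj (x := (s * m)⁻¹) (by rw [normalizer_eq_top]; exact mem_top _)
      ((hq1 y).1 hy)
    rwa [inv_inv] at this
  have k3 : τ y' * τ w = τ w * τ y' := by
    rw [← map_mul, ← map_mul, mem_centralizer_iff.1 hw.2 y' k2]
  have k4 : c * (m * τ w * m⁻¹) = (m * τ w * m⁻¹) * c :=
    (mem_centralizer_iff.1 hc _ (hn.conj_mem _ (mem_map_of_mem τ hw.1) m)).symm
  have k5 : τ w' = (s * m) * τ w * (s * m)⁻¹ := by
    rw [e, hsc]
    calc s * c * m * τ w * (s * c * m)⁻¹ = s * (c * (m * τ w * m⁻¹)) * c⁻¹ * s⁻¹ := by group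
      _ = _ := by rw [k4]; group
  rw [map_mul, map_mul, k5]
  calc τ y * (s * m * τ w * (s * m)⁻¹) = s * m * (τ y' * τ w) * (s * m)⁻¹ := by rw [hy']; group
    _ = _ := by rw [k3, hy']; group

end

/-- `W(D)` as a subgroup of the ambient group -/
def wOf (p : ℕ) {X : Type u} [Group X] (D : Subgroup X) : Subgroup X :=
  (stableNormalClosure p D).map D.subtype

theorem map_wOf {p : ℕ} {X Y : Type u} [Group X] [Group Y] (D : Subgroup X) (f : X →* Y)
    (hf : Function.Injective f) : (wOf p D).map f = wOf p (D.map f) := by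
  unfold wOf
  rw [← map_snc_equiv (D.equivMapOfInjective f hf), map_map, map_map]
  rfl

/-- the functor `W` -/
def wF (p : ℕ) [Fact p.Prime] : PFunctor.{u} p where
  W D := wOf p D
  le D := map_subtype_le _
  ne_bot {X} _ _ {D} h1 h2 h := by
    have : Nontrivial D := (nontrivial_iff_ne_bot D).2 h2
    exact snc_ne_bot h1 ((map_eq_bot_iff_of_injective _ (subtype_injective D)).1 h)
  map D f hf := map_wOf D f hf

variable {G : Type u} [Group G] [Finite G] {p : ℕ} [hp : Fact p.Prime]

omit hp in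
theorem wOf_le (D : Subgroup G) : wOf p D ≤ omegaOne p (centerThompsonOf p D) :=
  (map_mono snc_le_omegaCenterThompson).trans (CL.Th.map_omegaCenterThompson_subtype D).le

omit hp in
theorem elemAb_wOf (D : Subgroup G) : IsElementaryAbelian p (wOf p D) :=
  CL.Th.elemAb_mono (CL.Th.elemAb_omegaOne (CL.Th.comm_centerThompsonOf D)) (wOf_le D)

theorem wOf_quadratic {D : Subgroup G} {x : G} (hx : x ∈ D)
    (hq : ⁅⁅wOf p D, zpowers x⁆, zpowers x⁆ = ⊥) : wOf p D ≤ centralizer {x} := by
  have h1 : ⁅⁅stableNormalClosure p D, zpowers (⟨x, hx⟩ : D)⁆, zpowers (⟨x, hx⟩ : D)⁆ = ⊥ := by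
    rw [← map_eq_bot_iff_of_injective _ (subtype_injective D), ← commutator_commutator_map,
      MonoidHom.map_zpowers]
    exact hq
  rintro _ ⟨w, hw, rfl⟩
  rw [mem_centralizer_singleton_iff]
  exact congrArg Subtype.val (mem_centralizer_singleton_iff.1 (snc_quadratic h1 hw))

theorem le_normalizer_wOf (hst : IsActionPStable p G)
    (hc : centralizer (pCore p G : Set G) ≤ pCore p G) (S : Sylow p G) :
    normalizer (thompsonSubgroupOf p (S : Subgroup G) : Set G) ≤
      normalizer (wOf p (S : Subgroup G) : Set G) := by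
  set N := normalizer (thompsonSubgroupOf p (S : Subgroup G) : Set G) with hN
  have hSN : (S : Subgroup G) ≤ N := CL.Th.le_normalizer_thompsonSubgroupOf _
  have hJ : thompsonSubgroupOf p (S : Subgroup G) ≤ N :=
    (CL.Th.thompsonSubgroupOf_le _).trans hSN
  have e : ∀ W : Subgroup (S : Subgroup G), W.map (inclusion hSN) =
      (W.map (S : Subgroup G).subtype).subgroupOf N := fun W => by
    ext x
    simp only [mem_map, mem_subgroupOf]
    exact ⟨fun ⟨y, h1, h2⟩ => ⟨y, h1, congrArg Subtype.val h2⟩,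
      fun ⟨y, h1, h2⟩ => ⟨y, h1, Subtype.ext h2⟩⟩
  have h : IsStableEmbedding p (inclusion hSN) := by
    refine ⟨inclusion_injective _, inferInstance, ⟨S.subtype hSN, ?_⟩, ?_, ?_, fun V _ hV => ?_⟩
    · rw [inclusion_range, Sylow.coe_subtype]
    · exact CL.MSS.charP_iff.2 (charPIn_normalizer hc
        (S.isPGroup'.to_le (CL.Th.thompsonSubgroupOf_le _)))
    · rw [e]
      exact normal_subgroupOf_of_le_normalizer le_rfl
    · refine hst.2.2 S V ?_
      rw [e] at hV
      exact (map_mono hV).trans (by rw [subgroupOf_map_subtype]; exact inf_le_left)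
  have h1 := snc_map_normal h
  rw [e] at h1
  exact (normal_subgroupOf_iff_le_normalizer ((map_subtype_le _).trans hSN)).1 h1

theorem wOf_le_pCore (hst : IsActionPStable p G)
    (hc : centralizer (pCore p G : Set G) ≤ pCore p G) (S : Sylow p G) :
    wOf p (S : Subgroup G) ≤ pCore p G := by
  intro a ha
  have hPS : pCore p G ≤ S := CL.le_sylow_of_normal (isPGroup_pCore p G) S
  have h1 : ⁅⁅pCore p G, zpowers a⁆, zpowers a⁆ = ⊥ := by
    have h2 : ⁅pCore p G, zpowers a⁆ ≤ wOf p (S : Subgroup G) :=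
      (commutator_mono le_rfl (zpowers_le.2 ha)).trans (commutator_le_right_of_normalizes
        (hPS.trans (le_normalizer.trans ((wF p).normalizer_le _))))
    exact le_bot_iff.1 ((commutator_mono h2 (zpowers_le.2 ha)).trans
      (CL.Th.elemAb_commutator_eq_bot (elemAb_wOf _)).le)
  obtain ⟨D, hD, h2, ⟨k, h3⟩, h4⟩ := hst.2.1 a (h1 ▸ bot_le)
  refine CL.le_pCore (N := D) (isPGroup_iff_forall_mem.2 fun x hx => ?_) h4
  have h5 : x ^ p ^ k ∈ sectionKernel (pCore p G) ((frattini (pCore p G)).map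
      (pCore p G).subtype) := by
    rw [← h3]; exact pow_relIndex_mem _ hx
  obtain ⟨l, h6⟩ := CL.PSt.pow_mem_centralizer_of_mem_sectionKernel (isPGroup_pCore p G) h5
  obtain ⟨m, h7⟩ := isPGroup_iff_forall_mem.1 (isPGroup_pCore p G) _ (hc h6)
  exact ⟨k + l + m, by rw [pow_add, pow_add, pow_mul, pow_mul, h7]⟩

/-- Kurzweil–Stellmacher 9.4.4 -/
theorem wOf_normal (hst : IsActionPStable p G)
    (hc : centralizer (pCore p G : Set G) ≤ pCore p G) (S : Sylow p G) :
    (wOf p (S : Subgroup G)).Normal := by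
  set V : Subgroup G := ⨆ T : Sylow p G, wOf p (T : Subgroup G) with hV
  have hVn : V.Normal := normal_of_cj fun g => by
    rw [hV, cj_iSup]
    refine le_antisymm (iSup_le fun T => ?_) (iSup_le fun T => ?_)
    · refine le_iSup_of_le (g • T) (le_of_eq ?_)
      rw [sylow_coe_smul]; exact (wF p).cj g _
    · refine le_iSup_of_le (g⁻¹ • T) (le_of_eq ?_)
      rw [sylow_coe_smul]
      exact ((congrArg (wOf p) (cj_inv_cj g _)).symm.trans ((wF p).cj g _).symm)
  have hPS : ∀ T : Sylow p G, pCore p G ≤ T := fun T =>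
    CL.le_sylow_of_normal (isPGroup_pCore p G) T
  have hVe : IsElementaryAbelian p V := by
    refine CL.Th.elemAb_iSup (fun T => elemAb_wOf _) fun T U => ?_
    intro w hw
    refine mem_centralizer_iff.2 fun x hx => (mem_centralizer_singleton_iff.1
      (wOf_quadratic (hPS T (wOf_le_pCore hst hc U hx)) ?_ hw)).symm
    have h2 : ⁅wOf p (T : Subgroup G), zpowers x⁆ ≤ wOf p (U : Subgroup G) :=
      (commutator_mono le_rfl (zpowers_le.2 hx)).trans (commutator_le_right_of_normalizes
        ((wOf_le_pCore hst hc T).trans ((hPS U).trans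
          (le_normalizer.trans ((wF p).normalizer_le _)))))
    exact le_bot_iff.1 ((commutator_mono h2 (zpowers_le.2 hx)).trans
      (CL.Th.elemAb_commutator_eq_bot (elemAb_wOf _)).le)
  have hVS : V ≤ S := CL.le_sylow_of_normal (CL.Th.elemAb_isPGroup hVe) S
  set C := centralizer (V : Set G) with hC
  have hWV : wOf p (S : Subgroup G) ≤ V := le_iSup (fun T : Sylow p G => wOf p (T : Subgroup G)) S
  have hJ : thompsonSubgroupOf p (S : Subgroup G) ≤ C := by
    refine CL.Th.thompsonSubgroupOf_le_iff.2 fun A hA => ?_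
    by_contra h
    obtain ⟨h1, h2, h3⟩ := CL.Th.thompson_replacement hVe hVS hA
      (by rw [normalizer_eq_top]; exact le_top) le_rfl
    generalize hB : ⁅V, A⁆ ⊔ (A ⊓ centralizer ((⁅V, A⁆ : Subgroup G) : Set G)) = B at h1 h2 h3
    have hBA : B ≤ V ⊔ A := hB ▸ sup_le ((commutator_le_left V A).trans le_sup_left)
      (inf_le_left.trans le_sup_right)
    have h4 : ⁅V, B⁆ ≤ ⁅V, A⁆ := by
      refine (commutator_mono le_rfl hBA).trans ?_
      rw [CL.Th.comm_sup_right le_normalizer (by rw [normalizer_eq_top]; exact le_top),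
        CL.Th.elemAb_commutator_eq_bot hVe, bot_sup_eq]
    refine h3 (fun h' => h (CL.Th.comm_eq_bot_iff'.1 h')) (CL.Th.comm_eq_bot_iff'.2 ?_)
    set L := (pCore p (G ⧸ C)).comap (QuotientGroup.mk' C) with hL
    have hBL : B ≤ L := fun b hb => hst.1 V hVe b (le_bot_iff.1 (h2 ▸ commutator_mono
      ((commutator_mono le_rfl (zpowers_le.2 hb)).trans h4) (zpowers_le.2 hb)))
    have hCL : C ≤ L := fun c hc => by
      rw [hL, mem_comap, QuotientGroup.mk'_apply, (QuotientGroup.eq_one_iff c).2 hc]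
      exact one_mem _
    set J := thompsonSubgroupOf p ((S : Subgroup G) ⊓ L) with hJ
    have hBJ : B ≤ J := CL.Th.le_thompsonSubgroupOf
      (CL.Th.mem_maxElemAbIn_of_le h1 (le_inf h1.1 hBL) inf_le_left)
    have hJS : J ≤ thompsonSubgroupOf p (S : Subgroup G) :=
      CL.Th.thompsonSubgroupOf_mono_of_mem h1 (le_inf h1.1 hBL) inf_le_left
    have hWJ : wOf p (S : Subgroup G) ≤ centralizer (J : Set G) :=
      (wOf_le _).trans ((CL.Th.omegaOne_le _).trans (inf_le_right.trans (centralizer_le hJS)))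
    refine hBJ.trans (le_centralizer_iff.1 (iSup_le fun T => ?_))
    obtain ⟨g, rfl⟩ := MulAction.exists_smul_eq G S T
    obtain ⟨n, hnL, m, hm, hg⟩ := (sylIn_inf_normal S L).frattini (x := g)
      (by rw [normalizer_eq_top]; exact mem_top _)
    obtain ⟨s, hs, c, hc', hsc⟩ := CL.Th.exists_mul_of_mem_pCore_quotient C S hnL
    have hsL : s ∈ L := by
      have : s = n * c⁻¹ := by rw [hsc]; group
      rw [this]
      exact L.mul_mem hnL (L.inv_mem (hCL hc'))
    have hsm : s * m ∈ normalizer (J : Set G) := CL.Th.normalizer_le_normalizer_thompsonSubgroupOf _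
      (Subgroup.mul_mem _ (le_normalizer ⟨hs, hsL⟩) hm)
    have k1 : g = (s * m) * (m⁻¹ * c * m) := by rw [hg, hsc]; group
    have k2 : m⁻¹ * c * m ∈ C := conj_mem_of_normalizes' (H := ⊤)
      (by rw [normalizer_eq_top]) (mem_top _) hc'
    rw [sylow_coe_smul]
    refine ((wF p).cj g _).ge.trans ?_
    change g •ᶜ wOf p (S : Subgroup G) ≤ _
    rw [k1, cj_mul, cj_eq_of_mem_centralizer (centralizer_le hWV k2)]
    exact cj_le_of_mem_normalizer hWJ (normalizer_le_normalizer_centralizer _ hsm)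
  refine normal_of_cj fun g => ?_
  obtain ⟨c, hc', n, hn, hg⟩ := CL.Th.exists_mul_normalizer_thompson S C hJ g⁻¹
  rw [cj_eq_iff, hg, cj_mul, cj_eq_of_mem_normalizer (le_normalizer_wOf hst hc S hn),
    cj_eq_of_mem_centralizer (centralizer_le hWV hc')]

theorem pPrimeCore_sup_normalizer_wOf (hc : IsPConstrained p G)
    (hst : IsActionPStable p (G ⧸ pPrimeCore p G)) (S : Sylow p G) :
    pPrimeCore p G ⊔ normalizer (wOf p (S : Subgroup G) : Set G) = ⊤ := by
  refine pPrimeCore_sup_normalizer_eq_top (CL.Th.elemAb_isPGroup (elemAb_wOf _)) ?_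
  have := (wF p).map_of_inf_ker (inf_ker_eq_bot coprime_ker_mk'_pPrimeCore S.isPGroup')
  change (wOf p _).map _ = wOf p _ at this
  rw [this]
  exact wOf_normal hst (isPConstrained_iff.1 hc) (S.mapSurjective (QuotientGroup.mk'_surjective _))

theorem hasNPC_of_normalizer_wOf (hp2 : p ≠ 2) (S : Sylow p G)
    (hN : HasNormalPComplement p (normalizer (wOf p (S : Subgroup G) : Set G))) :
    HasNormalPComplement p G :=
  (wF p).hasNPC True False (fun Y _ _ _ T E _ hE h => Or.inl (by
      rw [hE trivial]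
      exact wOf_normal (CL.PSt.isActionPStable_of_not_involves hp2 (h.not_involves_qd hp2))
        h.charP T)) S (D := S) ⟨le_rfl, fun _ _ _ h => h⟩ (fun _ => rfl) hN False.elim

end CL.FC
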